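import Mathlib

set_option autoImplicit false
set_option linter.all false

/-!
Counting with a group `A` acting on a finite set all of whose non-identity elements have the same
number `x` of fixed points.
-/

namespace Cfsg.Agent.H36.FixCount

open MulAction

variable {A : Type*} [Group A] [Finite A] {Ω : Type*} [Finite Ω] [MulAction A Ω]

open scoped Classical in
/-- double counting of the pairs `(m, ω)` with `m • ω = ω`, `m ∈ M`. -/
theorem sum_stab [Fintype Ω] {x : ℕ} (hx : ∀ a : A, a ≠ 1 → Nat.card {ω : Ω // a • ω = ω} = x) (M : Subgroup A) :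
    ∑ ω : Ω, Nat.card (M ⊓ stabilizer A ω : Subgroup A) = Nat.card Ω + (Nat.card M - 1) * x := by
  haveI : Fintype A := Fintype.ofFinite A
  have h1 : ∀ ω : Ω, Nat.card (M ⊓ stabilizer A ω : Subgroup A) =
      ∑ a ∈ (Finset.univ : Finset A).filter (fun a => a ∈ M), if a • ω = ω then 1 else 0 := by
    intro ω
    rw [Finset.sum_ite, Finset.sum_const_zero, add_zero, Finset.sum_const, smul_eq_mul, mul_one,
      Finset.filter_filter]
    rw [Nat.card_eq_fintype_card, Fintype.card_subtype]
    congr 1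
    ext a
    simp
  have h2 : ∀ a : A, (∑ ω : Ω, if a • ω = ω then 1 else 0) = Nat.card {ω : Ω // a • ω = ω} := by
    intro a
    rw [Finset.sum_ite, Finset.sum_const_zero, add_zero, Finset.sum_const, smul_eq_mul, mul_one,
      Nat.card_eq_fintype_card, Fintype.card_subtype]
  rw [Finset.sum_congr rfl (fun ω _ => h1 ω), Finset.sum_comm, Finset.sum_congr rfl (fun a _ => h2 a)]
  have hmem : (1 : A) ∈ (Finset.univ : Finset A).filter (fun a => a ∈ M) := by simp
  rw [← Finset.add_sum_erase _ _ hmem]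
  congr 1
  · exact Nat.card_congr ⟨fun ω => ω.1, fun ω => ⟨ω, by simp⟩, fun ω => rfl, fun ω => rfl⟩
  · rw [Finset.sum_congr rfl (g := fun _ => x), Finset.sum_const, smul_eq_mul, Finset.card_erase_of_mem hmem]
    · congr 2
      rw [Nat.card_eq_fintype_card, Fintype.card_subtype]
    · intro a ha
      exact hx a (Finset.ne_of_mem_erase ha)

/-- The number of orbits. -/
theorem dvd_of_fix {x : ℕ} (hx : ∀ a : A, a ≠ 1 → Nat.card {ω : Ω // a • ω = ω} = x) :
    ∃ r : ℕ, Nat.card Ω + (Nat.card A - 1) * x = r * Nat.card A := by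
  classical
  haveI : Fintype A := Fintype.ofFinite A
  haveI : Fintype Ω := Fintype.ofFinite Ω
  haveI : Fintype (Quotient (orbitRel A Ω)) := Fintype.ofFinite _
  haveI : ∀ a : A, Fintype (fixedBy Ω a) := fun a => Fintype.ofFinite _
  have h := sum_card_fixedBy_eq_card_orbits_mul_card_group A Ω
  refine ⟨Fintype.card (Quotient (orbitRel A Ω)), ?_⟩
  rw [Nat.card_eq_fintype_card (α := A), ← h, ← Finset.add_sum_erase _ _ (Finset.mem_univ (1 : A))]
  congr 1
  · rw [← Nat.card_eq_fintype_card]
    exact (Nat.card_congr ⟨fun ω => ω.1, fun ω => ⟨ω, by simp [mem_fixedBy]⟩, fun ω => rfl, fun ω => rfl⟩).symm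
  · rw [Finset.sum_congr rfl (g := fun _ => x), Finset.sum_const, smul_eq_mul,
      Finset.card_erase_of_mem (Finset.mem_univ _), Finset.card_univ]
    intro a ha
    rw [← Nat.card_eq_fintype_card, ← hx a (Finset.ne_of_mem_erase ha)]
    rfl

omit [Finite Ω] in
theorem card_orbit_mul (M : Subgroup A) (ω : Ω) :
    (MulAction.orbit M ω).ncard * Nat.card (M ⊓ stabilizer A ω : Subgroup A) = Nat.card M := by
  have h := MulAction.index_stabilizer M ω
  have h2 : Nat.card (stabilizer M ω) = Nat.card (M ⊓ stabilizer A ω : Subgroup A) := by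
    refine Nat.card_congr ⟨fun a => ⟨a.1.1, a.1.2, a.2⟩, fun a => ⟨⟨a.1, a.2.1⟩, a.2.2⟩, fun a => rfl, fun a => rfl⟩
  rw [← h2, ← h, Subgroup.index_mul_card]

omit [Finite Ω] in
theorem card_orbit_mul' (ω : Ω) :
    (MulAction.orbit A ω).ncard * Nat.card (stabilizer A ω) = Nat.card A := by
  have h := MulAction.index_stabilizer A ω
  rw [← h, Subgroup.index_mul_card]

omit [Finite A] [Finite Ω] in
theorem orbit_sub (M : Subgroup A) (ω : Ω) : MulAction.orbit M ω ⊆ MulAction.orbit A ω := by
  rintro _ ⟨m, rfl⟩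
  exact ⟨m.1, rfl⟩

/-- If `|Ω| = x + |A|` and `A` is commutative then, for `ω₀`, `ω` in different `A`-orbits, the
stabiliser of `ω₀` is transitive on the orbit of `ω`. -/
theorem stab_trans {x : ℕ} (hcomm : ∀ a b : A, a * b = b * a)
    (hx : ∀ a : A, a ≠ 1 → Nat.card {ω : Ω // a • ω = ω} = x)
    (hcard : Nat.card Ω = x + Nat.card A) (ω₀ ω : Ω) (hne : ω ∉ MulAction.orbit A ω₀) (a : A) :
    ∃ m ∈ stabilizer A ω₀, m • ω = a • ω := by
  classical
  haveI : Fintype Ω := Fintype.ofFinite Ω
  set M := stabilizer A ω₀ with hM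
  have hMpos : 0 < Nat.card M := Nat.card_pos
  have hApos : 0 < Nat.card A := Nat.card_pos
  have e1 : ∑ ω : Ω, Nat.card (M ⊓ stabilizer A ω : Subgroup A) * Nat.card A
      = (Nat.card M * x + Nat.card A) * Nat.card A := by
    rw [← Finset.sum_mul, sum_stab hx M, hcard]
    congr 1
    obtain ⟨c, hc⟩ : ∃ c, Nat.card M = c + 1 := ⟨Nat.card M - 1, by omega⟩
    rw [hc]; simp; ring
  have e2 : ∑ ω : Ω, Nat.card M * Nat.card (stabilizer A ω) = Nat.card M * (Nat.card A * (x + 1)) := by
    rw [← Finset.mul_sum]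
    congr 1
    have := sum_stab (A := A) hx ⊤
    simp only [top_inf_eq] at this
    rw [this, hcard]
    obtain ⟨c, hc⟩ : ∃ c, Nat.card A = c + 1 := ⟨Nat.card A - 1, by omega⟩
    have hc' : Nat.card (⊤ : Subgroup A) = c + 1 := by rw [← hc]; exact Subgroup.card_top
    rw [hc, hc']; simp; ring
  -- pointwise inequality
  have hle : ∀ ω : Ω, Nat.card M * Nat.card (stabilizer A ω) ≤
      Nat.card (M ⊓ stabilizer A ω : Subgroup A) * Nat.card A := by
    intro ω
    have h1 := card_orbit_mul M ω
    have h2 := card_orbit_mul' (A := A) ω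
    have h3 : (MulAction.orbit M ω).ncard ≤ (MulAction.orbit A ω).ncard :=
      Set.ncard_le_ncard (orbit_sub M ω) (Set.toFinite _)
    calc Nat.card M * Nat.card (stabilizer A ω)
        = (MulAction.orbit M ω).ncard * (Nat.card (M ⊓ stabilizer A ω : Subgroup A) * Nat.card (stabilizer A ω)) := by
          rw [← h1]; ring
      _ ≤ (MulAction.orbit A ω).ncard * (Nat.card (M ⊓ stabilizer A ω : Subgroup A) * Nat.card (stabilizer A ω)) := by
          gcongr
      _ = Nat.card (M ⊓ stabilizer A ω : Subgroup A) * Nat.card A := by rw [← h2]; ring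
  -- stabilisers in the orbit of ω₀
  have hst : ∀ ω' ∈ MulAction.orbit A ω₀, stabilizer A ω' = M := by
    rintro _ ⟨b, rfl⟩
    ext c
    simp only [hM, mem_stabilizer_iff]
    rw [smul_smul, hcomm c b, mul_smul]
    exact ⟨fun h => (MulAction.injective b) h, fun h => by rw [h]⟩
  set O : Finset Ω := Finset.univ.filter (fun ω' => ω' ∈ MulAction.orbit A ω₀) with hO
  have hOcard : O.card * Nat.card M = Nat.card A := by
    rw [← card_orbit_mul' (A := A) ω₀, hM]
    congr 1
    rw [hO, ← Set.ncard_coe_finset]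
    congr 1
    ext y; simp
  have f1 : ∑ ω ∈ O, Nat.card (M ⊓ stabilizer A ω : Subgroup A) * Nat.card A = Nat.card A * Nat.card A := by
    rw [Finset.sum_congr rfl (g := fun _ => Nat.card M * Nat.card A)]
    · rw [Finset.sum_const, smul_eq_mul, ← mul_assoc, hOcard]
    · intro ω' hω'
      rw [hst ω' (by simpa [hO] using hω'), inf_idem]
  have f2 : ∑ ω ∈ O, Nat.card M * Nat.card (stabilizer A ω) = Nat.card A * Nat.card M := by
    rw [Finset.sum_congr rfl (g := fun _ => Nat.card M * Nat.card M)]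
    · rw [Finset.sum_const, smul_eq_mul, ← mul_assoc, hOcard]
    · intro ω' hω'
      rw [hst ω' (by simpa [hO] using hω')]
  have g1 := Finset.sum_add_sum_compl O (fun ω => Nat.card (M ⊓ stabilizer A ω : Subgroup A) * Nat.card A)
  have g2 := Finset.sum_add_sum_compl O (fun ω => Nat.card M * Nat.card (stabilizer A ω))
  rw [e1, f1] at g1
  rw [e2, f2] at g2
  have g3 : ∑ ω ∈ Oᶜ, Nat.card M * Nat.card (stabilizer A ω)
      = ∑ ω ∈ Oᶜ, Nat.card (M ⊓ stabilizer A ω : Subgroup A) * Nat.card A := by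
    have t1 : (Nat.card M * x + Nat.card A) * Nat.card A = Nat.card A * Nat.card A + Nat.card M * x * Nat.card A := by ring
    have t2 : Nat.card M * (Nat.card A * (x + 1)) = Nat.card A * Nat.card M + Nat.card M * x * Nat.card A := by ring
    rw [t1] at g1
    rw [t2] at g2
    omega
  have g4 := (Finset.sum_eq_sum_iff_of_le (fun ω _ => hle ω)).mp g3 ω (by simp [hO, hne])
  -- equality of orbit sizes
  have h1 := card_orbit_mul M ω
  have h2 := card_orbit_mul' (A := A) ω
  have hpos1 : 0 < Nat.card (M ⊓ stabilizer A ω : Subgroup A) := Nat.card_pos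
  have hpos2 : 0 < Nat.card (stabilizer A ω) := Nat.card_pos
  have h5 : (MulAction.orbit M ω).ncard = (MulAction.orbit A ω).ncard := by
    have : (MulAction.orbit M ω).ncard * (Nat.card (M ⊓ stabilizer A ω : Subgroup A) * Nat.card (stabilizer A ω))
      = (MulAction.orbit A ω).ncard * (Nat.card (M ⊓ stabilizer A ω : Subgroup A) * Nat.card (stabilizer A ω)) := by
      calc _ = Nat.card M * Nat.card (stabilizer A ω) := by rw [← h1]; ring
        _ = Nat.card (M ⊓ stabilizer A ω : Subgroup A) * Nat.card A := g4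
        _ = _ := by rw [← h2]; ring
    exact Nat.eq_of_mul_eq_mul_right (Nat.mul_pos hpos1 hpos2) this
  have h6 : MulAction.orbit M ω = MulAction.orbit A ω :=
    Set.eq_of_subset_of_ncard_le (orbit_sub M ω) h5.ge (Set.toFinite _)
  have h7 : a • ω ∈ MulAction.orbit M ω := by rw [h6]; exact ⟨a, rfl⟩
  obtain ⟨m, hm⟩ := h7
  exact ⟨m.1, m.2, hm⟩

end Cfsg.Agent.H36.FixCount
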