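import Cfsg.Agent.H36.SLT
import Cfsg.Agent.H36.FixCount
import Cfsg.Agent.ClassBase.SL

set_option autoImplicit false
set_option linter.all false

/-!
Minimal index of subgroups of SL_n(q): first part, the action of the group of transvections with
a given centre on a small transitive set.
-/

namespace Cfsg.Agent.H36.SLT

open Matrix Module

variable {F : Type*} [Field F] {ι : Type*} [Fintype ι] [DecidableEq ι]

/-- the linear functional `y ↦ y ⬝ v` -/
def dl (v : ι → F) : (ι → F) →ₗ[F] F where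
  toFun y := y ⬝ᵥ v
  map_add' := fun x y => add_dotProduct x y v
  map_smul' := fun c x => smul_dotProduct c x v

/-- vectors orthogonal to v -/
def E (v : ι → F) : Submodule F (ι → F) := LinearMap.ker (dl v)

theorem mem_E {v y : ι → F} : y ∈ E v ↔ y ⬝ᵥ v = 0 := Iff.rfl

theorem dl_surj {v : ι → F} (hv : v ≠ 0) : LinearMap.range (dl v) = ⊤ := by
  obtain ⟨i, hi⟩ : ∃ i, v i ≠ 0 := by
    by_contra hcon
    push Not at hcon
    exact hv (funext hcon)
  rw [LinearMap.range_eq_top]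
  intro c
  refine ⟨Pi.single i (c * (v i)⁻¹), ?_⟩
  change Pi.single i (c * (v i)⁻¹) ⬝ᵥ v = c
  rw [single_dotProduct, mul_assoc, inv_mul_cancel₀ hi, mul_one]

theorem finrank_E {v : ι → F} (hv : v ≠ 0) : finrank F (E v) + 1 = Fintype.card ι := by
  have h := LinearMap.finrank_range_add_finrank_ker (dl v)
  rw [dl_surj hv, finrank_top, finrank_self, finrank_fintype_fun_eq_card] at h
  rw [← h, add_comm]; rfl

theorem finrank_E_inf {v w : ι → F} (hv : v ≠ 0) (hw : ∀ c : F, w ≠ c • v) :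
    finrank F (E v ⊓ E w : Submodule F (ι → F)) + 2 = Fintype.card ι := by
  have hsurj : LinearMap.range ((dl v).prod (dl w)) = ⊤ := by
    rw [LinearMap.range_eq_top]
    rintro ⟨a, b⟩
    obtain ⟨y, hy1, hy2⟩ := exists_dot_eq v w hv hw a b
    refine ⟨y, Prod.ext ?_ ?_⟩
    · change y ⬝ᵥ v = a
      rw [dotProduct_comm, hy1]
    · change y ⬝ᵥ w = b
      rw [dotProduct_comm, hy2]
  have hker : LinearMap.ker ((dl v).prod (dl w)) = E v ⊓ E w := by
    rw [LinearMap.ker_prod]; rfl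
  have h := LinearMap.finrank_range_add_finrank_ker ((dl v).prod (dl w))
  rw [hsurj, finrank_top, finrank_prod, finrank_self, hker, finrank_fintype_fun_eq_card] at h
  omega

theorem card_E [Finite F] {v : ι → F} (hv : v ≠ 0) : Nat.card (E v) = Nat.card F ^ (Fintype.card ι - 1) := by
  rw [Module.natCard_eq_pow_finrank (K := F), ← finrank_E hv]
  simp

/-- a proper subspace is orthogonal to a non-zero vector -/
theorem exists_perp {S : Submodule F (ι → F)} (hS : S ≠ ⊤) : ∃ d : ι → F, d ≠ 0 ∧ ∀ y ∈ S, y ⬝ᵥ d = 0 := by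
  obtain ⟨f, hf, hle⟩ := Submodule.exists_le_ker_of_lt_top S (lt_top_iff_ne_top.mpr hS)
  have hfd : ∀ y : ι → F, f y = y ⬝ᵥ (fun i => f (Pi.single i 1)) := by
    intro y
    have : y = ∑ i, y i • (Pi.single i (1 : F) : ι → F) := by
      ext j
      simp [Finset.sum_apply, Pi.single_apply]
    conv_lhs => rw [this]
    rw [map_sum]
    simp [dotProduct]
  refine ⟨fun i => f (Pi.single i 1), ?_, ?_⟩
  · intro h0
    apply hf
    ext i
    simpa using congrFun h0 i
  · intro y hy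
    rw [← hfd]
    exact hle hy

/-- there is a vector orthogonal to `v` that is not a multiple of `φ`. -/
theorem exists_indep (h3 : 3 ≤ Fintype.card ι) (v φ : ι → F) : ∃ ψ : ι → F, ψ ⬝ᵥ v = 0 ∧ ∀ c : F, ψ ≠ c • φ := by
  by_contra hcon
  push Not at hcon
  have hle : E v ≤ Submodule.span F {φ} := by
    intro ψ hψ
    obtain ⟨c, hc⟩ := hcon ψ hψ
    rw [hc]
    exact Submodule.smul_mem _ _ (Submodule.mem_span_singleton_self φ)
  have h1 := Submodule.finrank_mono hle
  have h2 : finrank F (Submodule.span F {φ}) ≤ 1 := by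
    have := finrank_span_le_card (R := F) ({φ} : Set (ι → F))
    simpa using this
  by_cases hv : v = 0
  · have : E v = ⊤ := by
      rw [eq_top_iff]; intro y _; rw [mem_E, hv]; simp
    rw [this, finrank_top, finrank_fintype_fun_eq_card] at h1
    omega
  · have := finrank_E hv
    omega

theorem exists_smul_eq (h3 : 3 ≤ Fintype.card ι) {v v' : ι → F} (hv : v ≠ 0) (hv' : v' ≠ 0) :
    ∃ g : Matrix.SpecialLinearGroup ι F, (g : Matrix ι ι F) *ᵥ v = v' := by
  have key : ∀ v v' : ι → F, v ≠ 0 → (∀ c : F, v' ≠ c • v) →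
      ∃ g : Matrix.SpecialLinearGroup ι F, (g : Matrix ι ι F) *ᵥ v = v' := by
    intro v v' hv hind
    obtain ⟨ψ, h1, h2⟩ := exists_dot_eq v v' hv hind 1 1
    rw [dotProduct_comm] at h1 h2
    refine ⟨T (v' - v) ψ (by rw [dotProduct_sub, h1, h2, sub_self]), ?_⟩
    rw [T_mulVec, h1, one_smul]; abel
  by_cases hind : ∀ c : F, v' ≠ c • v
  · exact key v v' hv hind
  · push Not at hind
    obtain ⟨c, hc⟩ := hind
    obtain ⟨u, _, hu⟩ := exists_indep h3 0 v
    have hc0 : c ≠ 0 := by rintro rfl; apply hv'; rw [hc]; simp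
    have hu0 : u ≠ 0 := by rintro rfl; exact hu 0 (by simp)
    obtain ⟨g1, hg1⟩ := key v u hv hu
    obtain ⟨g2, hg2⟩ := key u v' hu0 (by
      intro d hd
      have hd0 : d ≠ 0 := by rintro rfl; apply hv'; rw [hd]; simp
      apply hu (d⁻¹ * c)
      rw [mul_smul, ← hc, hd, smul_smul, inv_mul_cancel₀ hd0, one_smul])
    refine ⟨g2 * g1, ?_⟩
    rw [Matrix.SpecialLinearGroup.coe_mul, ← mulVec_mulVec, hg1, hg2]

/-- transvections with the same centre are conjugate -/
theorem conj_same_center (h3 : 3 ≤ Fintype.card ι) {v φ φ' : ι → F} (hφ : φ ≠ 0) (hφ' : φ' ≠ 0)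
    (h : φ ⬝ᵥ v = 0) (h' : φ' ⬝ᵥ v = 0) :
    ∃ g : Matrix.SpecialLinearGroup ι F, g * T v φ h * g⁻¹ = T v φ' h' := by
  have key : ∀ (φ φ' : ι → F) (h : φ ⬝ᵥ v = 0) (h' : φ' ⬝ᵥ v = 0), φ ≠ 0 → (∀ c : F, φ' ≠ c • φ) →
      ∃ g : Matrix.SpecialLinearGroup ι F, g * T v φ h * g⁻¹ = T v φ' h' := by
    intro φ φ' h h' h0 hind
    obtain ⟨w, h1, h2⟩ := exists_dot_eq φ φ' h0 hind 1 1
    have hψw : (φ - φ') ⬝ᵥ w = 0 := by rw [sub_dotProduct, h1, h2, sub_self]
    have hψv : (φ - φ') ⬝ᵥ v = 0 := by rw [sub_dotProduct, h, h', sub_self]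
    refine ⟨T w (φ - φ') hψw, ?_⟩
    rw [conj_T]
    apply T_congr
    · rw [T_mulVec, hψv]; simp
    · rw [T_inv, vecMul_T, h1]; simp
  by_cases hind : ∀ c : F, φ' ≠ c • φ
  · exact key φ φ' h h' hφ hind
  · push Not at hind
    obtain ⟨c, hc⟩ := hind
    obtain ⟨u, huv, hu⟩ := exists_indep h3 v φ
    have hu0 : u ≠ 0 := by rintro rfl; exact hu 0 (by simp)
    obtain ⟨g1, hg1⟩ := key φ u h huv hφ hu
    obtain ⟨g2, hg2⟩ := key u φ' huv h' hu0 (by
      intro d hd
      have hd0 : d ≠ 0 := by rintro rfl; apply hφ'; rw [hd]; simp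
      apply hu (d⁻¹ * c)
      rw [mul_smul, ← hc, hd, smul_smul, inv_mul_cancel₀ hd0, one_smul])
    refine ⟨g2 * g1, ?_⟩
    rw [← hg2, ← hg1]
    group

/-- all transvections are conjugate -/
theorem conj_all (h3 : 3 ≤ Fintype.card ι) {v φ v' φ' : ι → F} (hv : v ≠ 0) (hv' : v' ≠ 0) (hφ : φ ≠ 0) (hφ' : φ' ≠ 0)
    (h : φ ⬝ᵥ v = 0) (h' : φ' ⬝ᵥ v' = 0) :
    ∃ g : Matrix.SpecialLinearGroup ι F, g * T v φ h * g⁻¹ = T v' φ' h' := by
  obtain ⟨g, hg⟩ := exists_smul_eq h3 hv hv'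
  have h1 := conj_T g v φ h
  have hd : (φ ᵥ* ((g⁻¹ : Matrix.SpecialLinearGroup ι F) : Matrix ι ι F)) ⬝ᵥ v' = 0 := by
    rw [← hg, dot_conj, h]
  have hne : (φ ᵥ* ((g⁻¹ : Matrix.SpecialLinearGroup ι F) : Matrix ι ι F)) ≠ 0 := by
    intro h0
    apply hφ
    have := congrArg (fun x => x ᵥ* (g : Matrix ι ι F)) h0
    simp only [vecMul_vecMul, zero_vecMul] at this
    rw [← Matrix.SpecialLinearGroup.coe_mul, inv_mul_cancel, Matrix.SpecialLinearGroup.coe_one, vecMul_one] at this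
    exact this
  obtain ⟨g2, hg2⟩ := conj_same_center h3 hne hφ' hd h'
  refine ⟨g2 * g, ?_⟩
  rw [← hg2]
  have : T v' (φ ᵥ* ((g⁻¹ : Matrix.SpecialLinearGroup ι F) : Matrix ι ι F)) hd = g * T v φ h * g⁻¹ := by
    rw [h1]; exact T_congr hg.symm rfl _
  rw [this]
  group

/-- a subgroup containing all the transvections is everything -/
theorem eq_top_of_T [Nontrivial ι] (K : Subgroup (Matrix.SpecialLinearGroup ι F))
    (hK : ∀ (v φ : ι → F) (h : φ ⬝ᵥ v = 0), T v φ h ∈ K) : K = ⊤ := by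
  rw [eq_top_iff]
  intro M _
  refine Cfsg.Agent.ClassBase.transvection_induction (fun g => g ∈ K) ?_ (fun A B hA hB => K.mul_mem hA hB) M
  intro i j hij a
  have h0 : (Pi.single j (1 : F) : ι → F) ⬝ᵥ (a • Pi.single i 1) = 0 := by
    rw [dotProduct_smul, single_dotProduct, Pi.single_eq_of_ne hij.symm]; simp
  have : Matrix.SpecialLinearGroup.transvection hij a = T (a • Pi.single i 1) (Pi.single j 1) h0 := by
    apply ext'
    rw [Matrix.SpecialLinearGroup.transvection_coe, coe_T]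
    congr 1
    ext k l
    simp only [vecMulVec_apply, Pi.smul_apply, smul_eq_mul, Matrix.single_apply, Pi.single_apply]
    by_cases hk : i = k <;> by_cases hl : j = l <;> simp [hk, hl, eq_comm]
  rw [this]
  exact hK _ _ _

end Cfsg.Agent.H36.SLT
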