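import Cfsg.Agent.H36.PSLIndex1

set_option autoImplicit false
set_option linter.all false

/-!
Minimal index of subgroups of SL_n(q): the trichotomy for `K ∩ Q_v`.
-/

namespace Cfsg.Agent.H36.SLT

open Matrix Module MulAction

variable {F : Type*} [Field F] {ι : Type*} [Fintype ι] [DecidableEq ι]

/-- the transvection group with centre `v` -/
def tau (v : ι → F) : Multiplicative (E v) →* Matrix.SpecialLinearGroup ι F where
  toFun φ := T v φ.toAdd.1 φ.toAdd.2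
  map_one' := T_zero_right v _
  map_mul' φ φ' := (T_mul_same_left v φ.toAdd.1 φ'.toAdd.1 φ.toAdd.2 φ'.toAdd.2).symm

section action

variable {Ω : Type*} [MulAction (Matrix.SpecialLinearGroup ι F) Ω]

/-- number of fixed points -/
noncomputable def fixn (Ω : Type*) [MulAction (Matrix.SpecialLinearGroup ι F) Ω] (g : Matrix.SpecialLinearGroup ι F) : ℕ :=
  Nat.card {ω : Ω // g • ω = ω}

theorem fixn_conj (g h : Matrix.SpecialLinearGroup ι F) : fixn Ω (g * h * g⁻¹) = fixn Ω h := by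
  refine Nat.card_congr ⟨fun ω => ⟨g⁻¹ • ω.1, ?_⟩, fun ω => ⟨g • ω.1, ?_⟩, fun ω => ?_, fun ω => ?_⟩
  · have := ω.2
    rw [mul_smul, mul_smul] at this
    rw [eq_inv_smul_iff]
    exact this
  · rw [mul_smul, mul_smul, inv_smul_smul, ω.2]
  · simp
  · simp

/-- the functionals `φ` such that `T v φ` fixes `ω`. -/
def Y (v : ι → F) (ω : Ω) : AddSubgroup (ι → F) where
  carrier := {φ | ∃ h : φ ⬝ᵥ v = 0, T v φ h • ω = ω}
  zero_mem' := ⟨zero_dotProduct v, by rw [T_zero_right, one_smul]⟩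
  add_mem' := by
    rintro φ φ' ⟨h, hφ⟩ ⟨h', hφ'⟩
    refine ⟨by rw [add_dotProduct, h, h', add_zero], ?_⟩
    rw [← T_mul_same_left v φ φ' h h', mul_smul, hφ', hφ]
  neg_mem' := by
    rintro φ ⟨h, hφ⟩
    refine ⟨by rw [neg_dotProduct, h, neg_zero], ?_⟩
    rw [← T_inv v φ h, inv_smul_eq_iff, hφ]

theorem mem_Y {v : ι → F} {ω : Ω} {φ : ι → F} : φ ∈ Y v ω ↔ ∃ h : φ ⬝ᵥ v = 0, T v φ h • ω = ω := Iff.rfl

theorem Y_le {v : ι → F} {ω : Ω} {φ : ι → F} (h : φ ∈ Y v ω) : φ ∈ E v := h.1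

/-- The standing hypotheses. -/
structure Small (F : Type*) [Field F] (ι : Type*) [Fintype ι] [DecidableEq ι] (Ω : Type*)
    [MulAction (Matrix.SpecialLinearGroup ι F) Ω] : Prop where
  finF : Finite F
  finΩ : Finite Ω
  three : 3 ≤ Fintype.card ι
  trans : ∀ a b : Ω, ∃ g : Matrix.SpecialLinearGroup ι F, g • a = b
  two : 2 ≤ Nat.card Ω
  small : Nat.card Ω < ∑ k ∈ Finset.range (Fintype.card ι), Nat.card F ^ k

theorem geom_lt (q m : ℕ) (hq : 2 ≤ q) : ∑ k ∈ Finset.range m, q ^ k < q ^ m := Nat.geomSum_lt hq (by simp)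

theorem geom_mul (q m : ℕ) (hq : 2 ≤ q) : (∑ k ∈ Finset.range m, q ^ k) * (q - 1) = q ^ m - 1 := by
  obtain ⟨c, rfl⟩ : ∃ c, q = c + 1 := ⟨q - 1, by omega⟩
  have := Nat.geomSum_eq hq m
  induction m with
  | zero => simp
  | succ m ih =>
    rw [Finset.sum_range_succ, add_mul, ih (Nat.geomSum_eq hq m)]
    have h1 : 1 ≤ (c+1) ^ m := Nat.one_le_pow _ _ (by omega)
    obtain ⟨d, hd⟩ : ∃ d, (c+1)^m = d + 1 := ⟨(c+1)^m - 1, by omega⟩
    rw [pow_succ, hd]
    simp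
    ring_nf
    omega

variable (hS : Small F ι Ω)

include hS

theorem Small.q2 : 2 ≤ Nat.card F := by
  haveI := hS.finF
  have : 1 < Nat.card F := Finite.one_lt_card
  omega

/-- There is a common number `x` of fixed points of transvections and `|Ω| = x + q^(n-1)`. -/
theorem Small.exists_x : ∃ x : ℕ, (∀ (v φ : ι → F) (h : φ ⬝ᵥ v = 0), v ≠ 0 → φ ≠ 0 → fixn Ω (T v φ h) = x) ∧
    Nat.card Ω = x + Nat.card F ^ (Fintype.card ι - 1) := by
  haveI := hS.finF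
  haveI := hS.finΩ
  have h3 := hS.three
  haveI : Nontrivial ι := Fintype.one_lt_card_iff_nontrivial.mp (by omega)
  obtain ⟨i, j, hij⟩ := exists_pair_ne ι
  have h0 : (Pi.single j (1 : F) : ι → F) ⬝ᵥ (Pi.single i (1 : F)) = 0 := by
    rw [single_dotProduct, Pi.single_eq_of_ne hij.symm]; simp
  have hne : ∀ k : ι, (Pi.single k (1 : F) : ι → F) ≠ 0 := by
    intro k hk
    have := congrFun hk k
    simp at this
  refine ⟨fixn Ω (T (Pi.single i (1 : F)) (Pi.single j (1 : F)) h0), ?_, ?_⟩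
  · intro v φ h hv hφ
    obtain ⟨g, hg⟩ := conj_all h3 (hne i) hv (hne j) hφ h0 h
    rw [← hg, fixn_conj]
  set x := fixn Ω (T (Pi.single i (1 : F)) (Pi.single j (1 : F)) h0) with hx
  have hall : ∀ (v φ : ι → F) (h : φ ⬝ᵥ v = 0), v ≠ 0 → φ ≠ 0 → fixn Ω (T v φ h) = x := by
    intro v φ h hv hφ
    obtain ⟨g, hg⟩ := conj_all h3 (hne i) hv (hne j) hφ h0 h
    rw [← hg, fixn_conj]
  -- x < |Ω|
  have hxlt : x < Nat.card Ω := by
    by_contra hcon
    push Not at hcon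
    have hfix : ∀ (v φ : ι → F) (h : φ ⬝ᵥ v = 0) (ω : Ω), T v φ h • ω = ω := by
      intro v φ h ω
      by_cases hv : v = 0
      · subst hv; rw [T_zero_left, one_smul]
      by_cases hφ : φ = 0
      · subst hφ; rw [T_zero_right, one_smul]
      have h1 := hall v φ h hv hφ
      have h2 : Nat.card Ω ≤ Nat.card {ω : Ω // T v φ h • ω = ω} := by
        rw [← h1] at hcon; exact hcon
      by_contra hne
      have h3 : Nat.card {ω : Ω // T v φ h • ω = ω} < Nat.card Ω :=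
        Finite.card_subtype_lt (x := ω) hne
      omega
    -- everything acts trivially
    have htriv : ∀ (g : Matrix.SpecialLinearGroup ι F) (ω : Ω), g • ω = ω := by
      intro g ω
      have := eq_top_of_T (MulAction.stabilizer (Matrix.SpecialLinearGroup ι F) ω) (fun v φ h => by
        rw [mem_stabilizer_iff]; exact hfix v φ h ω)
      have hg : g ∈ MulAction.stabilizer (Matrix.SpecialLinearGroup ι F) ω := by rw [this]; trivial
      exact hg
    have h2 := hS.two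
    haveI : Nontrivial Ω := Finite.one_lt_card_iff_nontrivial.mp (by omega)
    obtain ⟨a, b, hab⟩ := exists_pair_ne Ω
    obtain ⟨g, hg⟩ := hS.trans a b
    exact hab (by rw [← hg, htriv])
  -- divisibility
  letI act : MulAction (Multiplicative (E (Pi.single i (1 : F) : ι → F))) Ω := MulAction.compHom Ω (tau (Pi.single i (1 : F)))
  obtain ⟨r, hr⟩ := FixCount.dvd_of_fix (A := Multiplicative (E (Pi.single i (1 : F) : ι → F))) (Ω := Ω) (x := x) (by
    intro a ha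
    have := hall (Pi.single i (1 : F)) a.toAdd.1 a.toAdd.2 (hne i) (by
      intro h0; apply ha
      have : a.toAdd = 0 := Subtype.ext h0
      exact this)
    exact this)
  have hcE : Nat.card (Multiplicative (E (Pi.single i (1 : F) : ι → F))) = Nat.card F ^ (Fintype.card ι - 1) :=
    card_E (hne i)
  rw [hcE] at hr
  set P := Nat.card F ^ (Fintype.card ι - 1) with hP
  have hPpos : 0 < P := Nat.pow_pos (by have := hS.q2; omega)
  have hlt : Nat.card Ω < 2 * P := by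
    have h1 := hS.small
    obtain ⟨m, hm⟩ : ∃ m, Fintype.card ι = m + 1 := ⟨Fintype.card ι - 1, by omega⟩
    rw [hm, Finset.sum_range_succ] at h1
    have h2 := geom_lt (Nat.card F) m hS.q2
    have h3 : P = Nat.card F ^ m := by rw [hP, hm]; rfl
    omega
  obtain ⟨p, hp⟩ : ∃ p, P = p + 1 := ⟨P - 1, by omega⟩
  obtain ⟨y, hy⟩ : ∃ y, Nat.card Ω = x + y := ⟨Nat.card Ω - x, by omega⟩
  have h5 : y + P * x = r * P := by
    rw [← hr, hy, hp]; simp; ring
  have hypos : 0 < y := by omega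
  have hdvd : P ∣ y := by
    have : P ∣ y + P * x := by rw [h5]; exact Dvd.intro_left r rfl
    exact (Nat.dvd_add_left (Dvd.intro x rfl)).mp this
  obtain ⟨c, hc⟩ := hdvd
  have hc1 : c = 1 := by
    have : 0 < c := by
      rcases Nat.eq_zero_or_pos c with h | h
      · rw [h] at hc; omega
      · exact h
    have : c < 2 := by
      by_contra h
      push Not at h
      have : P * 2 ≤ P * c := Nat.mul_le_mul_left P h
      omega
    omega
  rw [hy, hc, hc1, mul_one]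

/-- The basic dichotomy: the orbit argument. -/
theorem Small.dich {v : ι → F} (hv : v ≠ 0) (ω ω' : Ω) :
    Y v ω' = Y v ω ∨ ∀ θ ∈ E v, ∃ m ∈ Y v ω, ∃ s ∈ Y v ω', θ = m + s := by
  haveI := hS.finF
  haveI := hS.finΩ
  obtain ⟨x, hx, hcard⟩ := hS.exists_x
  letI act : MulAction (Multiplicative (E v)) Ω := MulAction.compHom Ω (tau v)
  have hsm : ∀ (a : Multiplicative (E v)) (ω : Ω), a • ω = T v a.toAdd.1 a.toAdd.2 • ω := fun a ω => rfl
  by_cases hω : ω' ∈ MulAction.orbit (Multiplicative (E v)) ω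
  · left
    obtain ⟨a, ha⟩ := hω
    obtain ⟨φ₀, h₀, ha'⟩ : ∃ (φ₀ : ι → F) (h₀ : φ₀ ⬝ᵥ v = 0), T v φ₀ h₀ • ω = ω' := ⟨a.toAdd.1, a.toAdd.2, ha⟩
    ext φ
    rw [mem_Y, mem_Y]
    constructor
    · rintro ⟨h, hφ⟩
      refine ⟨h, ?_⟩
      rw [← ha', smul_smul, T_mul_same_left, T_congr rfl (add_comm _ _), ← T_mul_same_left _ _ _ h₀ h, mul_smul] at hφ
      exact (MulAction.injective (T v φ₀ h₀)) hφ
    · rintro ⟨h, hφ⟩
      refine ⟨h, ?_⟩
      rw [← ha', smul_smul, T_mul_same_left, T_congr rfl (add_comm _ _), ← T_mul_same_left _ _ _ h₀ h, mul_smul, hφ]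
  · right
    intro θ hθ
    have hcE : Nat.card (Multiplicative (E v)) = Nat.card F ^ (Fintype.card ι - 1) := card_E hv
    obtain ⟨m, hm, hmθ⟩ := FixCount.stab_trans (A := Multiplicative (E v)) (Ω := Ω) (x := x)
      (fun a b => mul_comm a b)
      (by
        intro a ha
        exact hx v a.toAdd.1 a.toAdd.2 hv (by
          intro h0; apply ha
          have : a.toAdd = 0 := Subtype.ext h0
          exact this))
      (by rw [hcE, hcard]) ω ω' hω (Multiplicative.ofAdd ⟨θ, hθ⟩)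
    obtain ⟨m₀, h₀, hm1, hm2⟩ : ∃ (m₀ : ι → F) (h₀ : m₀ ⬝ᵥ v = 0), T v m₀ h₀ • ω = ω ∧
        T v m₀ h₀ • ω' = T v θ (mem_E.mp hθ) • ω' := ⟨m.toAdd.1, m.toAdd.2, hm, hmθ⟩
    have hθ' := mem_E.mp hθ
    have hd : (θ - m₀) ⬝ᵥ v = 0 := by rw [sub_dotProduct, hθ', h₀, sub_zero]
    refine ⟨m₀, ⟨h₀, hm1⟩, θ - m₀, ⟨hd, ?_⟩, ?_⟩
    · have e : T v (θ - m₀) hd = (T v m₀ h₀)⁻¹ * T v θ hθ' := by
        rw [T_inv, T_mul_same_left]
        apply T_congr rfl
        abel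
      rw [e, mul_smul, ← hm2, inv_smul_smul]
    · abel

omit hS in
/-- stabilisers for a translate by an element fixing `v` -/
theorem mem_Y_smul {v w ψ : ι → F} (hψv : ψ ⬝ᵥ v = 0) (hψw : ψ ⬝ᵥ w = 0) (ω : Ω) (φ : ι → F) :
    φ ∈ Y v (T w ψ hψw • ω) ↔ φ + (φ ⬝ᵥ w) • ψ ∈ Y v ω := by
  have hc : ∀ h : φ ⬝ᵥ v = 0, (T w ψ hψw)⁻¹ * T v φ h * T w ψ hψw = T v (φ + (φ ⬝ᵥ w) • ψ)
      (by rw [add_dotProduct, smul_dotProduct, h, hψv]; simp) := by
    intro h
    have hd : (φ + (φ ⬝ᵥ w) • ψ) ⬝ᵥ v = 0 := by rw [add_dotProduct, smul_dotProduct, h, hψv]; simp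
    have h2 : T w ψ hψw * T v (φ + (φ ⬝ᵥ w) • ψ) hd * (T w ψ hψw)⁻¹ = T v φ h := by
      rw [conj_T]
      apply T_congr
      · rw [T_mulVec, hψv]; simp
      · rw [T_inv, vecMul_T, add_dotProduct, smul_dotProduct, hψw]
        simp
    rw [← h2]
    group
  have hdot : (φ + (φ ⬝ᵥ w) • ψ) ⬝ᵥ v = φ ⬝ᵥ v := by
    rw [add_dotProduct, smul_dotProduct, hψv]; simp
  rw [mem_Y, mem_Y]
  constructor
  · rintro ⟨h, hφ⟩
    refine ⟨by rw [hdot, h], ?_⟩
    rw [← hc h, mul_smul, mul_smul, hφ, inv_smul_smul]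
  · rintro ⟨h, hφ⟩
    rw [hdot] at h
    refine ⟨h, ?_⟩
    rw [← hc h, mul_smul, mul_smul, inv_smul_eq_iff] at hφ
    exact hφ

theorem Small.lemC {v : ι → F} (hv : v ≠ 0) (ω : Ω) {w ψ : ι → F} (hψv : ψ ⬝ᵥ v = 0) (hψw : ψ ⬝ᵥ w = 0) :
    (∀ φ ∈ Y v ω, (φ ⬝ᵥ w) • ψ ∈ Y v ω) ∨ (∀ θ ∈ E v, ∃ φ₁ ∈ Y v ω, ∃ c : F, θ = φ₁ + c • ψ) := by
  rcases hS.dich hv ω (T w ψ hψw • ω) with h | h
  · left
    intro φ hφ
    have h1 : φ + (φ ⬝ᵥ w) • ψ ∈ Y v ω := by
      rw [← mem_Y_smul hψv hψw, h]; exact hφ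
    have := (Y v ω).sub_mem h1 hφ
    simpa using this
  · right
    intro θ hθ
    obtain ⟨m, hm, s, hs, rfl⟩ := h θ hθ
    rw [mem_Y_smul hψv hψw] at hs
    refine ⟨m + (s + (s ⬝ᵥ w) • ψ), (Y v ω).add_mem hm hs, -(s ⬝ᵥ w), ?_⟩
    rw [neg_smul]; abel

omit hS in
theorem card_le_of_cover [Finite F] {v ψ : ι → F} {ω : Ω} (h : ∀ θ ∈ E v, ∃ φ₁ ∈ Y v ω, ∃ c : F, θ = φ₁ + c • ψ)
    (hψ : ψ ⬝ᵥ v = 0) :
    Nat.card (E v) ≤ Nat.card (Y v ω) * Nat.card F := by
  rw [← Nat.card_prod]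
  let f : Y v ω × F → E v := fun p => ⟨p.1.1 + p.2 • ψ, by
    rw [mem_E, add_dotProduct, smul_dotProduct, hψ, mem_E.mp (Y_le p.1.2)]; simp⟩
  apply Nat.card_le_card_of_surjective f
  rintro ⟨θ, hθ⟩
  obtain ⟨φ₁, h1, c, hc⟩ := h θ hθ
  exact ⟨(⟨φ₁, h1⟩, c), Subtype.ext hc.symm⟩

/-- if the stabiliser in the transvection group is non-trivial, then it has index at most `q`. -/
theorem Small.lemD {v : ι → F} (hv : v ≠ 0) (ω : Ω) (hne : ∃ φ ∈ Y v ω, φ ≠ 0) :
    Nat.card (E v) ≤ Nat.card (Y v ω) * Nat.card F := by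
  haveI := hS.finF
  by_cases hB : ∃ (w ψ : ι → F) (_ : ψ ⬝ᵥ v = 0) (_ : ψ ⬝ᵥ w = 0), ∀ θ ∈ E v, ∃ φ₁ ∈ Y v ω, ∃ c : F, θ = φ₁ + c • ψ
  · obtain ⟨w, ψ, h1, h2, h3⟩ := hB
    exact card_le_of_cover h3 h1
  · push Not at hB
    have hA : ∀ (w ψ : ι → F), ψ ⬝ᵥ v = 0 → ψ ⬝ᵥ w = 0 → ∀ φ ∈ Y v ω, (φ ⬝ᵥ w) • ψ ∈ Y v ω := by
      intro w ψ h1 h2
      rcases hS.lemC hv ω h1 h2 with h | h
      · exact h
      · exfalso
        obtain ⟨θ, hθ, hh⟩ := hB w ψ h1 h2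
        obtain ⟨φ₁, g1, c, g2⟩ := h θ hθ
        exact hh φ₁ g1 c g2
    -- then Y = E
    obtain ⟨φ, hφ, hφ0⟩ := hne
    have hstep : ∀ θ : ι → F, θ ⬝ᵥ v = 0 → (∀ c : F, θ ≠ c • φ) → θ ∈ Y v ω := by
      intro θ hθ hind
      obtain ⟨w, h1, h2⟩ := exists_dot_eq φ θ hφ0 hind 1 0
      have := hA w θ hθ h2 φ hφ
      rwa [h1, one_smul] at this
    have hall : ∀ θ ∈ E v, θ ∈ Y v ω := by
      intro θ hθ
      by_cases hind : ∀ c : F, θ ≠ c • φ
      · exact hstep θ hθ hind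
      · push Not at hind
        obtain ⟨c, hc⟩ := hind
        obtain ⟨u, hu1, hu2⟩ := exists_indep hS.three v φ
        have h1 := hstep u hu1 hu2
        have h2 := hstep (θ + u) (by rw [add_dotProduct, mem_E.mp hθ, hu1, add_zero]) (by
          intro d hd
          apply hu2 (d - c)
          rw [sub_smul, ← hd, ← hc]; abel)
        have := (Y v ω).sub_mem h2 h1
        simpa using this
    have h1 : Nat.card (E v) ≤ Nat.card (Y v ω) := by
      refine Nat.card_le_card_of_injective (fun θ : E v => (⟨θ.1, hall θ.1 θ.2⟩ : Y v ω)) ?_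
      intro a b hab
      exact Subtype.ext (congrArg (fun z => z.1) hab)
    have hq := hS.q2
    calc Nat.card (E v) ≤ Nat.card (Y v ω) := h1
      _ ≤ Nat.card (Y v ω) * Nat.card F := Nat.le_mul_of_pos_right _ (by omega)

theorem Small.sum_Y {v : ι → F} (hv : v ≠ 0) {x : ℕ}
    (hx : ∀ (v φ : ι → F) (h : φ ⬝ᵥ v = 0), v ≠ 0 → φ ≠ 0 → fixn Ω (T v φ h) = x)
    (hcard : Nat.card Ω = x + Nat.card F ^ (Fintype.card ι - 1)) [Fintype Ω] :
    ∑ ω : Ω, Nat.card (Y v ω) = Nat.card F ^ (Fintype.card ι - 1) * (x + 1) := by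
  classical
  haveI := hS.finF
  letI act : MulAction (Multiplicative (E v)) Ω := MulAction.compHom Ω (tau v)
  have h := FixCount.sum_stab (A := Multiplicative (E v)) (Ω := Ω) (x := x) (by
        intro a ha
        exact hx v a.toAdd.1 a.toAdd.2 hv (by
          intro h0; apply ha
          have : a.toAdd = 0 := Subtype.ext h0
          exact this)) ⊤
  have hcE : Nat.card (Multiplicative (E v)) = Nat.card F ^ (Fintype.card ι - 1) := card_E hv
  have hcard2 : Nat.card (⊤ : Subgroup (Multiplicative (E v))) = Nat.card F ^ (Fintype.card ι - 1) := by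
    rw [Subgroup.card_top, hcE]
  rw [hcard2, hcard] at h
  have e : ∀ ω : Ω, Nat.card ((⊤ : Subgroup (Multiplicative (E v))) ⊓ stabilizer (Multiplicative (E v)) ω : Subgroup _) = Nat.card (Y v ω) := by
    intro ω
    refine Nat.card_congr ⟨fun a => ⟨a.1.toAdd.1, ⟨a.1.toAdd.2, a.2.2⟩⟩, fun φ => ⟨Multiplicative.ofAdd ⟨φ.1, Y_le φ.2⟩, ⟨trivial, ?_⟩⟩, fun a => rfl, fun a => rfl⟩
    obtain ⟨h1, h2⟩ := φ.2
    exact h2
  rw [Finset.sum_congr rfl (fun ω _ => e ω)] at h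
  rw [h]
  have hPpos : 0 < Nat.card F ^ (Fintype.card ι - 1) := Nat.pow_pos (by have := hS.q2; omega)
  obtain ⟨p, hp⟩ : ∃ p, Nat.card F ^ (Fintype.card ι - 1) = p + 1 := ⟨Nat.card F ^ (Fintype.card ι - 1) - 1, by omega⟩
  rw [hp]; simp; ring

/-- Case (b): if some stabiliser is proper and non-trivial then all have index `q`. -/
theorem Small.lemE {v : ι → F} (hv : v ≠ 0) (ω : Ω) (hne : ∃ φ ∈ Y v ω, φ ≠ 0) (hne' : ∃ φ ∈ E v, φ ∉ Y v ω) (ω' : Ω) :
    Nat.card (Y v ω') * Nat.card F = Nat.card F ^ (Fintype.card ι - 1) := by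
  classical
  haveI := hS.finF
  haveI := hS.finΩ
  haveI : Fintype Ω := Fintype.ofFinite Ω
  obtain ⟨x, hx, hcard⟩ := hS.exists_x
  have hnz : ∀ ω' : Ω, ∃ φ ∈ Y v ω', φ ≠ 0 := by
    intro ω'
    rcases hS.dich hv ω ω' with h | h
    · rw [h]; exact hne
    · obtain ⟨θ, hθ, hθ'⟩ := hne'
      obtain ⟨m, hm, s, hs, rfl⟩ := h θ hθ
      refine ⟨s, hs, ?_⟩
      rintro rfl
      exact hθ' (by simpa using hm)
  have hle : ∀ ω' : Ω, Nat.card F ^ (Fintype.card ι - 1) ≤ Nat.card (Y v ω') * Nat.card F := by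
    intro ω'
    rw [← card_E hv]
    exact hS.lemD hv ω' (hnz ω')
  have hsum := hS.sum_Y hv hx hcard
  set P := Nat.card F ^ (Fintype.card ι - 1) with hP
  set q := Nat.card F with hq
  have hq2 : 2 ≤ q := hS.q2
  -- |Ω| * P ≤ q P (x+1)
  have e1 : ∑ ω' : Ω, Nat.card (Y v ω') * q = P * (x + 1) * q := by
    rw [← Finset.sum_mul, hsum]
  have e2 : ∑ ω' : Ω, P = Nat.card Ω * P := by
    rw [Finset.sum_const, smul_eq_mul, Finset.card_univ, Nat.card_eq_fintype_card]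
  have e3 : ∑ ω' : Ω, P ≤ ∑ ω' : Ω, Nat.card (Y v ω') * q := Finset.sum_le_sum (fun ω' _ => hle ω')
  -- upper bound
  have hPpos : 0 < P := Nat.pow_pos (by omega)
  have e4 : Nat.card Ω ≤ (x + 1) * q := by
    rw [e1, e2] at e3
    have : Nat.card Ω * P ≤ ((x + 1) * q) * P := by
      calc Nat.card Ω * P ≤ P * (x + 1) * q := e3
        _ = _ := by ring
    exact Nat.le_of_mul_le_mul_right this hPpos
  have hsmall := hS.small
  set N := ∑ k ∈ Finset.range (Fintype.card ι), q ^ k with hN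
  have hN1 : N * (q - 1) = q ^ (Fintype.card ι) - 1 := geom_mul q _ hq2
  have hqn : q ^ (Fintype.card ι) = P * q := by
    rw [hP, ← pow_succ]
    congr 1
    have := hS.three
    omega
  have e5 : (x + 1) * q ≤ Nat.card Ω := by
    obtain ⟨c, hc⟩ : ∃ c, q = c + 1 := ⟨q - 1, by omega⟩
    rw [hqn, hc] at hN1
    have h7 : Nat.card Ω + 1 ≤ N := hsmall
    have h8 : (Nat.card Ω + 1) * c ≤ N * c := Nat.mul_le_mul_right c h7
    have h9 : N * c + 1 = P * (c + 1) := by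
      have : 0 < P * (c + 1) := by positivity
      have h10 : N * c = P * (c + 1) - 1 := by simpa using hN1
      omega
    rw [hc]
    nlinarith [hcard, h8, h9]
  have e6 : ∑ ω' : Ω, P = ∑ ω' : Ω, Nat.card (Y v ω') * q := by
    apply le_antisymm e3
    rw [e1, e2]
    calc P * (x + 1) * q = ((x + 1) * q) * P := by ring
      _ ≤ Nat.card Ω * P := Nat.mul_le_mul_right P e5
  exact ((Finset.sum_eq_sum_iff_of_le (fun ω' _ => hle ω')).mp e6 ω' (Finset.mem_univ _)).symm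

end action

end Cfsg.Agent.H36.SLT
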