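import Cfsg.Agent.H36.PSLIndex2

set_option autoImplicit false
set_option linter.all false

/-!
Minimal index of subgroups of SL_n(q): case (b) is impossible.
-/

namespace Cfsg.Agent.H36.SLT

open Matrix Module MulAction

variable {F : Type*} [Field F] {ι : Type*} [Fintype ι] [DecidableEq ι]
variable {Ω : Type*} [MulAction (Matrix.SpecialLinearGroup ι F) Ω]

theorem card_Y_smul (g : Matrix.SpecialLinearGroup ι F) (v : ι → F) (ω : Ω) :
    Nat.card (Y ((g : Matrix ι ι F) *ᵥ v) (g • ω)) = Nat.card (Y v ω) := by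
  refine Nat.card_congr ⟨fun φ => ⟨φ.1 ᵥ* (g : Matrix ι ι F), ?_⟩,
    fun φ => ⟨φ.1 ᵥ* ((g⁻¹ : Matrix.SpecialLinearGroup ι F) : Matrix ι ι F), ?_⟩, fun φ => ?_, fun φ => ?_⟩
  · obtain ⟨h, hφ⟩ := φ.2
    have h' : (φ.1 ᵥ* (g : Matrix ι ι F)) ⬝ᵥ v = 0 := by rw [← dotProduct_mulVec]; exact h
    refine ⟨h', ?_⟩
    have h2 : g * T v _ h' * g⁻¹ = T ((g : Matrix ι ι F) *ᵥ v) φ.1 h := by
      rw [conj_T]
      apply T_congr rfl
      rw [vecMul_vecMul, ← Matrix.SpecialLinearGroup.coe_mul, mul_inv_cancel, Matrix.SpecialLinearGroup.coe_one,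
        vecMul_one]
    rw [← h2, mul_smul, mul_smul, inv_smul_smul] at hφ
    exact (MulAction.injective g) hφ
  · obtain ⟨h, hφ⟩ := φ.2
    refine ⟨by rw [dot_conj]; exact h, ?_⟩
    rw [← conj_T g v φ.1 h, mul_smul, mul_smul, inv_smul_smul, hφ]
  · apply Subtype.ext
    change (φ.1 ᵥ* (g : Matrix ι ι F)) ᵥ* ((g⁻¹ : Matrix.SpecialLinearGroup ι F) : Matrix ι ι F) = φ.1
    rw [vecMul_vecMul, ← Matrix.SpecialLinearGroup.coe_mul, mul_inv_cancel, Matrix.SpecialLinearGroup.coe_one,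
        vecMul_one]
  · apply Subtype.ext
    change (φ.1 ᵥ* ((g⁻¹ : Matrix.SpecialLinearGroup ι F) : Matrix ι ι F)) ᵥ* (g : Matrix ι ι F) = φ.1
    rw [vecMul_vecMul, ← Matrix.SpecialLinearGroup.coe_mul, inv_mul_cancel, Matrix.SpecialLinearGroup.coe_one,
        vecMul_one]

section

variable (hS : Small F ι Ω)

include hS

theorem Small.smul_mem {v : ι → F} (hv : v ≠ 0) (ω : Ω)
    (hcard : Nat.card (Y v ω) * Nat.card F = Nat.card F ^ (Fintype.card ι - 1)) (c : F) {φ : ι → F} (hφ : φ ∈ Y v ω) :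
    c • φ ∈ Y v ω := by
  haveI := hS.finF
  have hq := hS.q2
  by_cases h0 : φ = 0
  · subst h0; rw [smul_zero]; exact (Y v ω).zero_mem
  by_cases hex : ∃ φ' ∈ Y v ω, ∀ d : F, φ' ≠ d • φ
  · obtain ⟨φ', hφ', hind⟩ := hex
    obtain ⟨w, h1, h2⟩ := exists_dot_eq φ φ' h0 hind 0 c
    rcases hS.lemC hv ω (mem_E.mp (Y_le hφ)) h1 with h | h
    · have := h φ' hφ'
      rwa [h2] at this
    · -- the map Y × F → E is bijective, contradiction
      exfalso
      have hφv := mem_E.mp (Y_le hφ)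
      let f : Y v ω × F → E v := fun p => ⟨p.1.1 + p.2 • φ, by
        rw [mem_E, add_dotProduct, smul_dotProduct, hφv, mem_E.mp (Y_le p.1.2)]; simp⟩
      have hsurj : Function.Surjective f := by
        rintro ⟨θ, hθ⟩
        obtain ⟨φ₁, h1, c, hc⟩ := h θ hθ
        exact ⟨(⟨φ₁, h1⟩, c), Subtype.ext hc.symm⟩
      have hcardeq : Nat.card (Y v ω × F) = Nat.card (E v) := by
        rw [Nat.card_prod, hcard, card_E hv]
      have hinj : Function.Injective f := by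
        haveI : Finite (Y v ω × F) := inferInstance
        exact ((Nat.bijective_iff_surjective_and_card f).mpr ⟨hsurj, hcardeq⟩).1
      have : f (⟨φ, hφ⟩, 0) = f (⟨0, (Y v ω).zero_mem⟩, 1) := by
        apply Subtype.ext
        change φ + (0 : F) • φ = 0 + (1 : F) • φ
        simp
      have h3 := congrArg (fun p => p.2) (hinj this)
      simp at h3
  · push Not at hex
    -- Y ⊆ F φ, compare cardinalities
    let g : Y v ω → F := fun φ' => (hex φ'.1 φ'.2).choose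
    have hg : ∀ φ' : Y v ω, φ'.1 = g φ' • φ := fun φ' => (hex φ'.1 φ'.2).choose_spec
    have hginj : Function.Injective g := by
      intro a b hab
      apply Subtype.ext
      rw [hg a, hg b, hab]
    have hle : Nat.card F ≤ Nat.card (Y v ω) := by
      have h3 := hS.three
      obtain ⟨m, hm⟩ : ∃ m, Fintype.card ι - 1 = m + 1 + 1 := ⟨Fintype.card ι - 3, by omega⟩
      rw [hm, pow_succ] at hcard
      have h4 : Nat.card (Y v ω) = Nat.card F ^ (m + 1) := Nat.eq_of_mul_eq_mul_right (by omega) hcard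
      rw [h4]
      exact Nat.le_self_pow (by omega) _
    have hbij : Function.Bijective g := by
      apply (Nat.bijective_iff_injective_and_card g).mpr
      exact ⟨hginj, le_antisymm (Nat.card_le_card_of_injective g hginj) hle⟩
    obtain ⟨φ', hφ'⟩ := hbij.2 c
    rw [← hφ', ← hg φ']
    exact φ'.2

/-- Case (b) is impossible: the stabilisers in transvection groups are trivial or everything. -/
theorem Small.no_case_b {v₀ : ι → F} (hv₀ : v₀ ≠ 0) (ω₀ : Ω) :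
    (∀ φ ∈ Y v₀ ω₀, φ = 0) ∨ (∀ φ ∈ E v₀, φ ∈ Y v₀ ω₀) := by
  haveI := hS.finF
  haveI := hS.finΩ
  have h3 := hS.three
  have hq := hS.q2
  by_contra hcon
  push Not at hcon
  obtain ⟨hc1, hc2⟩ := hcon
  -- all v
  have hall : ∀ v : ι → F, v ≠ 0 → ∀ ω : Ω, Nat.card (Y v ω) * Nat.card F = Nat.card F ^ (Fintype.card ι - 1) := by
    intro v hv ω
    obtain ⟨g, hg⟩ := exists_smul_eq h3 hv₀ hv
    have h1 := card_Y_smul g v₀ (g⁻¹ • ω)
    rw [smul_inv_smul, hg] at h1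
    rw [h1]
    exact hS.lemE hv₀ ω₀ hc1 hc2 _
  -- as subspaces
  obtain ⟨S, hSmem⟩ : ∃ S : (ι → F) → Submodule F (ι → F), ∀ v : ι → F, v ≠ 0 → ∀ φ, φ ∈ S v ↔ φ ∈ Y v ω₀ := by
    classical
    refine ⟨fun v => if hv : v ≠ 0 then
      { carrier := Y v ω₀
        add_mem' := fun ha hb => (Y v ω₀).add_mem ha hb
        zero_mem' := (Y v ω₀).zero_mem
        smul_mem' := fun c φ hφ => hS.smul_mem hv ω₀ (hall v hv ω₀) c hφ }
      else ⊥, ?_⟩
    intro v hv φ
    simp only [dif_pos hv]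
    rfl
  have hSE : ∀ v : ι → F, v ≠ 0 → ∀ φ ∈ S v, φ ⬝ᵥ v = 0 := by
    intro v hv φ hφ
    exact mem_E.mp (Y_le ((hSmem v hv φ).mp hφ))
  have hSrank : ∀ v : ι → F, v ≠ 0 → finrank F (S v) + 2 = Fintype.card ι := by
    intro v hv
    have h1 := hall v hv ω₀
    have h2 : Nat.card (S v) = Nat.card (Y v ω₀) :=
      Nat.card_congr (Equiv.subtypeEquivRight (fun φ => hSmem v hv φ))
    rw [← h2, Module.natCard_eq_pow_finrank (K := F), ← pow_succ] at h1
    have := Nat.pow_right_injective hq h1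
    omega
  -- property (P)
  have hP : ∀ v c : ι → F, v ≠ 0 → c ≠ 0 → (∀ θ ∈ S c, θ ⬝ᵥ v = 0) ∨ (∀ φ ∈ S v, φ ⬝ᵥ c = 0 → φ ∈ S c) := by
    intro v c hv hc
    by_contra hcon
    push Not at hcon
    obtain ⟨⟨θ, hθ, hθv⟩, φ, hφ, hφc, hφ'⟩ := hcon
    rw [hSmem c hc] at hθ hφ'
    rw [hSmem v hv] at hφ
    obtain ⟨hφv, hφfix⟩ := hφ
    obtain ⟨hθc, hθfix⟩ := hθ
    -- conjugate T c θ by T v φ
    have hd : (θ - (θ ⬝ᵥ v) • φ) ⬝ᵥ c = 0 := by
      rw [sub_dotProduct, smul_dotProduct, hθc, hφc]; simp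
    have h1 : T v φ hφv * T c θ hθc * (T v φ hφv)⁻¹ = T c (θ - (θ ⬝ᵥ v) • φ) hd := by
      rw [conj_T]
      apply T_congr
      · rw [T_mulVec, hφc]; simp
      · rw [T_inv, vecMul_T]; simp [sub_eq_add_neg]
    have h2 : θ - (θ ⬝ᵥ v) • φ ∈ Y c ω₀ := by
      refine ⟨hd, ?_⟩
      rw [← h1, mul_smul, mul_smul, inv_smul_eq_iff.mpr hφfix.symm, hθfix, hφfix]
    have h3 : (θ ⬝ᵥ v) • φ ∈ Y c ω₀ := by
      have := (Y c ω₀).sub_mem ⟨hθc, hθfix⟩ h2
      simpa using this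
    apply hφ'
    have := hS.smul_mem hc ω₀ (hall c hc ω₀) (θ ⬝ᵥ v)⁻¹ h3
    rwa [smul_smul, inv_mul_cancel₀ hθv, one_smul] at this
  -- scalar multiples
  have hscal : ∀ v : ι → F, v ≠ 0 → ∀ a : F, a ≠ 0 → S (a • v) = S v := by
    intro v hv a ha
    have hav : a • v ≠ 0 := smul_ne_zero ha hv
    apply Submodule.ext
    intro φ
    rw [hSmem _ hav, hSmem _ hv]
    constructor
    · rintro ⟨h, hφ⟩
      have h' : (a • φ) ⬝ᵥ v = 0 := by rw [smul_dotProduct, ← dotProduct_smul, h]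
      have h2 : a • φ ∈ Y v ω₀ := ⟨h', by rw [← T_smul a v φ h h']; exact hφ⟩
      have := hS.smul_mem hv ω₀ (hall v hv ω₀) a⁻¹ h2
      rwa [smul_smul, inv_mul_cancel₀ ha, one_smul] at this
    · intro hφ
      obtain ⟨h', hφ'⟩ := hS.smul_mem hv ω₀ (hall v hv ω₀) a hφ
      have h : φ ⬝ᵥ (a • v) = 0 := by rw [dotProduct_smul, ← smul_dotProduct, h']
      exact ⟨h, by rw [T_smul a v φ h h']; exact hφ'⟩
  -- (1)
  have h1 : ∀ v c : ι → F, v ≠ 0 → c ≠ 0 → (∀ φ ∈ S v, φ ⬝ᵥ c = 0) → S c = S v := by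
    intro v c hv hc hperp
    by_cases hind : ∀ a : F, c ≠ a • v
    · rcases hP v c hv hc with h | h
      · have r1 := finrank_E_inf hv hind
        have r2 := hSrank v hv
        have r3 := hSrank c hc
        have le1 : S v ≤ E v ⊓ E c := fun φ hφ => ⟨hSE v hv φ hφ, hperp φ hφ⟩
        have le2 : S c ≤ E v ⊓ E c := fun φ hφ => ⟨h φ hφ, hSE c hc φ hφ⟩
        rw [Submodule.eq_of_le_of_finrank_eq le1 (by omega), Submodule.eq_of_le_of_finrank_eq le2 (by omega)]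
      · have le : S v ≤ S c := fun φ hφ => h φ hφ (hperp φ hφ)
        exact (Submodule.eq_of_le_of_finrank_eq le (by
          have := hSrank v hv; have := hSrank c hc; omega)).symm
    · push Not at hind
      obtain ⟨a, ha⟩ := hind
      have ha0 : a ≠ 0 := by rintro rfl; apply hc; rw [ha]; simp
      rw [ha, hscal v hv a ha0]
  -- (2)
  have hr := hSrank v₀ hv₀
  have hne : S v₀ ≠ ⊥ := by
    intro h
    rw [h, finrank_bot] at hr
    omega
  obtain ⟨φ, hφ, hφ0⟩ := Submodule.exists_mem_ne_zero_of_ne_bot hne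
  obtain ⟨c, hφc⟩ : ∃ c : ι → F, φ ⬝ᵥ c ≠ 0 := by
    obtain ⟨i, hi⟩ : ∃ i, φ i ≠ 0 := by
      by_contra hcon
      push Not at hcon
      exact hφ0 (funext hcon)
    exact ⟨Pi.single i 1, by rw [dotProduct_single, mul_one]; exact hi⟩
  have hc : c ≠ 0 := by rintro rfl; exact hφc (dotProduct_zero φ)
  have hn1 : ¬ (∀ θ ∈ S c, θ ⬝ᵥ v₀ = 0) := by
    intro h
    have := h1 c v₀ hc hv₀ h
    rw [this] at hφ
    exact hφc (hSE c hc φ hφ)
  have hn2 := (hP v₀ c hv₀ hc).resolve_left hn1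
  have hle : S v₀ ⊓ E c ≤ S v₀ ⊓ S c := fun y hy => ⟨hy.1, hn2 y hy.1 hy.2⟩
  have r1 := Submodule.finrank_mono hle
  have r2 := Submodule.finrank_sup_add_finrank_inf_eq (S v₀) (E c)
  have r3 := Submodule.finrank_sup_add_finrank_inf_eq (S v₀) (S c)
  have r4 : finrank F (S v₀ ⊔ E c : Submodule F (ι → F)) ≤ Fintype.card ι := by
    rw [← finrank_fintype_fun_eq_card F (η := ι)]
    exact Submodule.finrank_le _
  have r5 := finrank_E (F := F) hc
  have r6 := hSrank c hc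
  have hproper : S v₀ ⊔ S c ≠ ⊤ := by
    intro h
    rw [h, finrank_top, finrank_fintype_fun_eq_card] at r3
    omega
  obtain ⟨d, hd, hdperp⟩ := exists_perp hproper
  have e1 := h1 v₀ d hv₀ hd (fun y hy => hdperp y (Submodule.mem_sup_left hy))
  have e2 := h1 c d hc hd (fun y hy => hdperp y (Submodule.mem_sup_right hy))
  rw [← e1, e2] at hφ
  exact hφc (hSE c hc φ hφ)

end

end Cfsg.Agent.H36.SLT
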