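import Cfsg.Agent.H36.PSLIndex3

set_option autoImplicit false
set_option linter.all false

/-!
Minimal index of subgroups of SL_n(q): a subgroup of small index contains no transvection and has
index `q^(n-1)`.
-/

namespace Cfsg.Agent.H36.SLT

open Matrix Module MulAction

variable {F : Type*} [Field F] {ι : Type*} [Fintype ι] [DecidableEq ι]

/-- inverse transpose -/
def invT : Matrix.SpecialLinearGroup ι F ≃* Matrix.SpecialLinearGroup ι F where
  toFun g := (g⁻¹).transpose
  invFun g := (g⁻¹).transpose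
  left_inv g := by
    apply ext'
    rw [Matrix.SpecialLinearGroup.coe_transpose]
    have : ((g⁻¹).transpose)⁻¹ = g.transpose := by
      rw [inv_eq_iff_mul_eq_one]
      apply ext'
      rw [Matrix.SpecialLinearGroup.coe_mul, Matrix.SpecialLinearGroup.coe_transpose,
        Matrix.SpecialLinearGroup.coe_transpose, ← Matrix.transpose_mul, ← Matrix.SpecialLinearGroup.coe_mul,
        mul_inv_cancel, Matrix.SpecialLinearGroup.coe_one, Matrix.transpose_one]
    rw [this, Matrix.SpecialLinearGroup.coe_transpose, Matrix.transpose_transpose]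
  right_inv g := by
    apply ext'
    rw [Matrix.SpecialLinearGroup.coe_transpose]
    have : ((g⁻¹).transpose)⁻¹ = g.transpose := by
      rw [inv_eq_iff_mul_eq_one]
      apply ext'
      rw [Matrix.SpecialLinearGroup.coe_mul, Matrix.SpecialLinearGroup.coe_transpose,
        Matrix.SpecialLinearGroup.coe_transpose, ← Matrix.transpose_mul, ← Matrix.SpecialLinearGroup.coe_mul,
        mul_inv_cancel, Matrix.SpecialLinearGroup.coe_one, Matrix.transpose_one]
    rw [this, Matrix.SpecialLinearGroup.coe_transpose, Matrix.transpose_transpose]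
  map_mul' g h := by
    apply ext'
    rw [Matrix.SpecialLinearGroup.coe_transpose, _root_.mul_inv_rev, Matrix.SpecialLinearGroup.coe_mul,
      Matrix.transpose_mul, Matrix.SpecialLinearGroup.coe_mul, Matrix.SpecialLinearGroup.coe_transpose,
      Matrix.SpecialLinearGroup.coe_transpose]

theorem invT_T (v φ : ι → F) (h : φ ⬝ᵥ v = 0) :
    invT (T v φ h) = T (-φ) v (by rw [dotProduct_neg, dotProduct_comm, h, neg_zero]) := by
  apply ext'
  change ((((T v φ h)⁻¹).transpose : Matrix.SpecialLinearGroup ι F) : Matrix ι ι F) = _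
  rw [Matrix.SpecialLinearGroup.coe_transpose, T_inv, coe_T, coe_T, Matrix.transpose_add, Matrix.transpose_one,
    transpose_vecMulVec]

/-- The standing hypotheses for a subgroup. -/
structure SmallK (K : Subgroup (Matrix.SpecialLinearGroup ι F)) : Prop where
  finF : Finite F
  three : 3 ≤ Fintype.card ι
  ne_top : K ≠ ⊤
  small : K.index < ∑ k ∈ Finset.range (Fintype.card ι), Nat.card F ^ k

variable {K : Subgroup (Matrix.SpecialLinearGroup ι F)}

theorem SmallK.toSmall (hK : SmallK K) : Small F ι (Matrix.SpecialLinearGroup ι F ⧸ K) := by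
  haveI := hK.finF
  refine ⟨hK.finF, inferInstance, hK.three, ?_, ?_, ?_⟩
  · intro a b
    exact MulAction.exists_smul_eq _ a b
  · have h1 : K.index ≠ 1 := fun h => hK.ne_top (Subgroup.index_eq_one.mp h)
    have h2 : K.index ≠ 0 := Subgroup.index_ne_zero_of_finite
    have h3 : K.index = Nat.card (Matrix.SpecialLinearGroup ι F ⧸ K) := rfl
    omega
  · exact hK.small

theorem SmallK.center (hK : SmallK K) {v : ι → F} (hv : v ≠ 0) :
    (∀ φ (h : φ ⬝ᵥ v = 0), φ ≠ 0 → T v φ h ∉ K) ∨ (∀ φ (h : φ ⬝ᵥ v = 0), T v φ h ∈ K) := by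
  have key : ∀ φ (h : φ ⬝ᵥ v = 0), T v φ h ∈ K ↔
      φ ∈ Y v ((1 : Matrix.SpecialLinearGroup ι F) : Matrix.SpecialLinearGroup ι F ⧸ K) := by
    intro φ h
    rw [mem_Y]
    have e : T v φ h • ((1 : Matrix.SpecialLinearGroup ι F) : Matrix.SpecialLinearGroup ι F ⧸ K)
        = ((T v φ h * 1 : Matrix.SpecialLinearGroup ι F) : Matrix.SpecialLinearGroup ι F ⧸ K) := rfl
    constructor
    · intro hm
      refine ⟨h, ?_⟩
      rw [e, QuotientGroup.eq]
      simpa using hm
    · rintro ⟨_, hm⟩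
      rw [e, QuotientGroup.eq] at hm
      simpa using hm
  rcases hK.toSmall.no_case_b hv ((1 : Matrix.SpecialLinearGroup ι F) : Matrix.SpecialLinearGroup ι F ⧸ K) with h | h
  · left
    intro φ hφ h0 hm
    exact h0 (h φ ((key φ hφ).mp hm))
  · right
    intro φ hφ
    exact (key φ hφ).mpr (h φ hφ)

theorem SmallK.dual (hK : SmallK K) : SmallK (K.comap (invT : Matrix.SpecialLinearGroup ι F ≃* _).toMonoidHom) := by
  refine ⟨hK.finF, hK.three, ?_, ?_⟩
  · intro h
    apply hK.ne_top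
    rw [eq_top_iff]
    intro g _
    have : invT.symm g ∈ K.comap (invT : Matrix.SpecialLinearGroup ι F ≃* _).toMonoidHom := by rw [h]; trivial
    have h2 : invT (invT.symm g) ∈ K := this
    rwa [MulEquiv.apply_symm_apply] at h2
  · rw [Subgroup.index_comap_of_surjective K invT.surjective]
    exact hK.small

theorem SmallK.axis (hK : SmallK K) {φ : ι → F} (hφ : φ ≠ 0) :
    (∀ v (h : φ ⬝ᵥ v = 0), v ≠ 0 → T v φ h ∉ K) ∨ (∀ v (h : φ ⬝ᵥ v = 0), T v φ h ∈ K) := by
  have key : ∀ (v : ι → F) (h : φ ⬝ᵥ v = 0) (h' : (-v) ⬝ᵥ φ = 0),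
      T φ (-v) h' ∈ K.comap (invT : Matrix.SpecialLinearGroup ι F ≃* _).toMonoidHom ↔ T v φ h ∈ K := by
    intro v h h'
    rw [Subgroup.mem_comap]
    have : (invT : Matrix.SpecialLinearGroup ι F ≃* _).toMonoidHom (T φ (-v) h') = T v φ h := by
      change invT (T φ (-v) h') = _
      rw [invT_T]
      exact T_congr (neg_neg v) rfl _
    rw [this]
  rcases hK.dual.center hφ with h | h
  · left
    intro v hv h0 hm
    have h' : (-v) ⬝ᵥ φ = 0 := by rw [neg_dotProduct, dotProduct_comm, hv, neg_zero]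
    exact h (-v) h' (neg_ne_zero.mpr h0) ((key v hv h').mpr hm)
  · right
    intro v hv
    have h' : (-v) ⬝ᵥ φ = 0 := by rw [neg_dotProduct, dotProduct_comm, hv, neg_zero]
    exact (key v hv h').mp (h (-v) h')

/-- No transvections in `K`. -/
theorem SmallK.no_T (hK : SmallK K) {v φ : ι → F} (h : φ ⬝ᵥ v = 0) (hv : v ≠ 0) (hφ : φ ≠ 0) : T v φ h ∉ K := by
  haveI : Nontrivial ι := Fintype.one_lt_card_iff_nontrivial.mp (by have := hK.three; omega)
  intro hm
  have A1 : ∀ (v φ : ι → F) (h : φ ⬝ᵥ v = 0), v ≠ 0 → φ ≠ 0 → T v φ h ∈ K →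
      ∀ (φ' : ι → F) (h' : φ' ⬝ᵥ v = 0), T v φ' h' ∈ K := by
    intro v φ h hv hφ hm
    rcases hK.center hv with h1 | h1
    · exact absurd hm (h1 φ h hφ)
    · exact h1
  have A2 : ∀ (v φ : ι → F) (h : φ ⬝ᵥ v = 0), v ≠ 0 → φ ≠ 0 → T v φ h ∈ K →
      ∀ (v' : ι → F) (h' : φ ⬝ᵥ v' = 0), T v' φ h' ∈ K := by
    intro v φ h hv hφ hm
    rcases hK.axis hφ with h1 | h1
    · exact absurd hm (h1 v h hv)
    · exact h1
  apply hK.ne_top
  apply eq_top_of_T
  intro v' φ' h'
  by_cases hv' : v' = 0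
  · subst hv'; rw [T_zero_left]; exact K.one_mem
  by_cases hφ' : φ' = 0
  · subst hφ'; rw [T_zero_right]; exact K.one_mem
  -- ψ ⊥ v, v'
  obtain ⟨ψ, hψ0, hψv, hψv'⟩ : ∃ ψ : ι → F, ψ ≠ 0 ∧ ψ ⬝ᵥ v = 0 ∧ ψ ⬝ᵥ v' = 0 := by
    have h3 := hK.three
    by_contra hcon
    push Not at hcon
    have : E v ⊓ E v' = ⊥ := by
      rw [eq_bot_iff]
      intro y hy
      by_contra hy0
      exact hcon y hy0 hy.1 hy.2
    by_cases hind : ∀ c : F, v' ≠ c • v
    · have := finrank_E_inf hv hind
      rw [‹E v ⊓ E v' = ⊥›, finrank_bot] at this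
      omega
    · push Not at hind
      obtain ⟨c, hc⟩ := hind
      have e : E v ⊓ E v' = E v := by
        apply inf_eq_left.mpr
        intro y hy
        rw [mem_E, hc, dotProduct_smul, mem_E.mp hy, smul_zero]
      rw [e] at this
      have h5 := finrank_E hv
      rw [this, finrank_bot] at h5
      omega
  have s1 : T v ψ hψv ∈ K := A1 v φ h hv hφ hm ψ hψv
  have s2 : T v' ψ hψv' ∈ K := A2 v ψ hψv hv hψ0 s1 v' hψv'
  exact A1 v' ψ hψv' hv' hψ0 s2 φ' h'

/-- The index is `q^(n-1)`. -/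
theorem SmallK.index_eq (hK : SmallK K) : K.index = Nat.card F ^ (Fintype.card ι - 1) := by
  haveI := hK.finF
  haveI : Nontrivial ι := Fintype.one_lt_card_iff_nontrivial.mp (by have := hK.three; omega)
  obtain ⟨x, hx, hcard⟩ := hK.toSmall.exists_x
  obtain ⟨i, j, hij⟩ := exists_pair_ne ι
  have h0 : (Pi.single j (1 : F) : ι → F) ⬝ᵥ (Pi.single i (1 : F)) = 0 := by
    rw [single_dotProduct, Pi.single_eq_of_ne hij.symm]; simp
  have hne : ∀ k : ι, (Pi.single k (1 : F) : ι → F) ≠ 0 := by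
    intro k hk
    have := congrFun hk k
    simp at this
  have hx0 : x = 0 := by
    rw [← hx (Pi.single i 1) (Pi.single j 1) h0 (hne i) (hne j)]
    unfold fixn
    rw [Nat.card_eq_zero]
    left
    refine ⟨fun ω => ?_⟩
    obtain ⟨ω, hω⟩ := ω
    induction ω using QuotientGroup.induction_on with
    | H g =>
      have e : T (Pi.single i 1) (Pi.single j 1) h0 • ((g : Matrix.SpecialLinearGroup ι F) : Matrix.SpecialLinearGroup ι F ⧸ K)
        = ((T (Pi.single i 1) (Pi.single j 1) h0 * g : Matrix.SpecialLinearGroup ι F) : Matrix.SpecialLinearGroup ι F ⧸ K) := rfl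
      rw [e, eq_comm, QuotientGroup.eq] at hω
      have hω' : g⁻¹ * T (Pi.single i 1) (Pi.single j 1) h0 * (g⁻¹)⁻¹ ∈ K := by
        rw [inv_inv, mul_assoc]; exact hω
      rw [conj_T] at hω'
      refine hK.no_T _ ?_ ?_ hω'
      · intro h
        apply hne i
        have := congrArg (fun y => (g : Matrix ι ι F) *ᵥ y) h
        simp only [mulVec_mulVec, mulVec_zero] at this
        rw [← Matrix.SpecialLinearGroup.coe_mul, mul_inv_cancel, Matrix.SpecialLinearGroup.coe_one, one_mulVec] at this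
        exact this
      · intro h
        apply hne j
        have := congrArg (fun y => y ᵥ* ((g⁻¹ : Matrix.SpecialLinearGroup ι F) : Matrix ι ι F)) h
        simp only [vecMul_vecMul, zero_vecMul] at this
        rw [← Matrix.SpecialLinearGroup.coe_mul, inv_mul_cancel, Matrix.SpecialLinearGroup.coe_one, vecMul_one] at this
        exact this
  rw [hx0, zero_add] at hcard
  exact hcard

/-- every element of the group can be moved into `K` by a transvection with prescribed axis. -/
theorem SmallK.exists_T_mul (hK : SmallK K) {φ : ι → F} (hφ : φ ≠ 0) (g : Matrix.SpecialLinearGroup ι F) :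
    ∃ (v : ι → F) (h : φ ⬝ᵥ v = 0), T v φ h * g ∈ K := by
  haveI := hK.finF
  -- the map E φ → G ⧸ K, v ↦ (T v φ)⁻¹ K
  let f : E φ → Matrix.SpecialLinearGroup ι F ⧸ K := fun v =>
    ((T v.1 φ (by rw [dotProduct_comm]; exact v.2))⁻¹ : Matrix.SpecialLinearGroup ι F)
  have hinj : Function.Injective f := by
    intro a b hab
    have h1 : φ ⬝ᵥ a.1 = 0 := by rw [dotProduct_comm]; exact a.2
    have h2 : φ ⬝ᵥ b.1 = 0 := by rw [dotProduct_comm]; exact b.2
    have hab' : (((T a.1 φ h1)⁻¹ : Matrix.SpecialLinearGroup ι F) : Matrix.SpecialLinearGroup ι F ⧸ K)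
      = ((T b.1 φ h2)⁻¹ : Matrix.SpecialLinearGroup ι F) := hab
    rw [QuotientGroup.eq, inv_inv, T_inv', T_mul_same_right] at hab'
    by_contra hne
    refine hK.no_T _ ?_ hφ hab'
    intro h0
    apply hne
    apply Subtype.ext
    exact sub_eq_zero.mp (by rw [sub_eq_add_neg]; exact h0)
  have hc : Nat.card (E φ) = Nat.card (Matrix.SpecialLinearGroup ι F ⧸ K) := by
    rw [card_E hφ]
    exact hK.index_eq.symm
  have hbij := (Nat.bijective_iff_injective_and_card f).mpr ⟨hinj, hc⟩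
  obtain ⟨v, hv⟩ := hbij.2 (g : Matrix.SpecialLinearGroup ι F ⧸ K)
  have h1 : φ ⬝ᵥ v.1 = 0 := by rw [dotProduct_comm]; exact v.2
  refine ⟨v.1, h1, ?_⟩
  have hv' : (((T v.1 φ h1)⁻¹ : Matrix.SpecialLinearGroup ι F) : Matrix.SpecialLinearGroup ι F ⧸ K)
      = (g : Matrix.SpecialLinearGroup ι F ⧸ K) := hv
  rw [QuotientGroup.eq, inv_inv] at hv'
  exact hv'

end Cfsg.Agent.H36.SLT
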