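import Cfsg.Agent.H36.PSLIndex4

set_option autoImplicit false
set_option linter.all false

/-!
Minimal index of subgroups of SL_n(q): final contradiction.
-/

namespace Cfsg.Agent.H36.SLT

open Matrix Module MulAction

variable {F : Type*} [Field F] {ι : Type*} [Fintype ι] [DecidableEq ι]

/-- unit vectors -/
abbrev ee (F : Type*) [Field F] {ι : Type*} [DecidableEq ι] (i : ι) : ι → F := Pi.single i (1 : F)

theorem ee_dot (i : ι) (y : ι → F) : ee F i ⬝ᵥ y = y i := by rw [single_dotProduct, one_mul]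

theorem dot_ee (i : ι) (y : ι → F) : y ⬝ᵥ ee F i = y i := by rw [dotProduct_single, mul_one]

theorem ee_ne (i : ι) : ee F i ≠ 0 := by
  intro h
  have := congrFun h i
  simp [ee] at this

theorem ee_self (i : ι) : ee F i i = 1 := by simp [ee]

theorem ee_of_ne {i k : ι} (h : k ≠ i) : ee F i k = 0 := by simp [ee, Pi.single_apply, h]

/-- the matrix `1 + u e_jᵀ + z e_iᵀ` -/
def MM (i j : ι) (u z : ι → F) : Matrix ι ι F := 1 + vecMulVec u (ee F j) + vecMulVec z (ee F i)

variable (K : Subgroup (Matrix.SpecialLinearGroup ι F))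

/-- `1 + u e_jᵀ + z e_iᵀ ∈ K` with `u_i = u_j = z_i = 0`. -/
def RR (i j : ι) (u z : ι → F) : Prop :=
  u i = 0 ∧ u j = 0 ∧ z i = 0 ∧ ∃ h ∈ K, (h : Matrix ι ι F) = MM i j u z

theorem MM_mul {i j : ι} {u z u' z' : ι → F} (hui : u' i = 0) (huj : u' j = 0) (hz : z' i = 0) :
    MM i j u z * MM i j u' z' = MM i j (u + u') (z + z' + z' j • u) := by
  unfold MM
  simp only [add_mul, mul_add, one_mul, mul_one, vecMulVec_mul_vecMulVec, ee_dot, hui, huj, hz, zero_smul, smul_zero,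
    vecMulVec_zero, add_zero, add_vecMulVec, smul_vecMulVec, vecMulVec_smul]
  abel

variable {K}

theorem RR.mul {i j : ι} {u z u' z' : ι → F} (h : RR K i j u z) (h' : RR K i j u' z') :
    RR K i j (u + u') (z + z' + z' j • u) := by
  obtain ⟨h1, h2, h3, g, hg, hgm⟩ := h
  obtain ⟨h1', h2', h3', g', hg', hgm'⟩ := h'
  refine ⟨by simp [h1, h1'], by simp [h2, h2'], by simp [h1, h3, h3'], g * g', K.mul_mem hg hg', ?_⟩
  rw [Matrix.SpecialLinearGroup.coe_mul, hgm, hgm', MM_mul h1' h2' h3']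

theorem RR.inv {i j : ι} {u z : ι → F} (h : RR K i j u z) : RR K i j (-u) (-z + z j • u) := by
  obtain ⟨h1, h2, h3, g, hg, hgm⟩ := h
  refine ⟨by simp [h1], by simp [h2], by simp [h1, h3], g⁻¹, K.inv_mem hg, ?_⟩
  have e : MM i j u z * MM i j (-u) (-z + z j • u) = 1 := by
    rw [MM_mul (by simp [h1]) (by simp [h2]) (by simp [h1, h3])]
    unfold MM
    have : z + (-z + z j • u) + (-z + z j • u) j • u = 0 := by
      ext k
      simp [h2]
    rw [this]
    simp
  have e2 : (g : Matrix ι ι F) * MM i j (-u) (-z + z j • u) = 1 := by rw [hgm, e]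
  have e3 : ((g⁻¹ : Matrix.SpecialLinearGroup ι F) : Matrix ι ι F) * (g : Matrix ι ι F) = 1 := by
    rw [← Matrix.SpecialLinearGroup.coe_mul, inv_mul_cancel, Matrix.SpecialLinearGroup.coe_one]
  calc ((g⁻¹ : Matrix.SpecialLinearGroup ι F) : Matrix ι ι F)
      = ((g⁻¹ : Matrix.SpecialLinearGroup ι F) : Matrix ι ι F) * ((g : Matrix ι ι F) * MM i j (-u) (-z + z j • u)) := by
        rw [e2, mul_one]
    _ = MM i j (-u) (-z + z j • u) := by rw [← mul_assoc, e3, one_mul]

section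

variable (hK : SmallK K)
include hK

theorem SmallK.RR_zero {i j : ι} {z : ι → F} (h : RR K i j 0 z) : z = 0 := by
  obtain ⟨-, -, h3, g, hg, hgm⟩ := h
  by_contra hz
  have hd : ee F i ⬝ᵥ z = 0 := by rw [ee_dot, h3]
  have : g = T z (ee F i) hd := by
    apply ext'
    rw [hgm, coe_T]
    unfold MM
    simp
  rw [this] at hg
  exact hK.no_T hd hz (ee_ne i) hg

theorem SmallK.RR_unique {i j : ι} {u z z' : ι → F} (h : RR K i j u z) (h' : RR K i j u z') : z = z' := by
  have h1 := h'.mul h.inv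
  rw [add_neg_cancel] at h1
  have h2 := hK.RR_zero h1
  have hu : u j = 0 := h.2.1
  ext k
  have h3 := congrFun h2 k
  simp only [Pi.add_apply, Pi.neg_apply, Pi.smul_apply, smul_eq_mul, Pi.zero_apply, hu, mul_zero] at h3
  linear_combination -h3

theorem SmallK.RR_exists {i j : ι} {u : ι → F} (hi : u i = 0) (hj : u j = 0) : ∃ z, RR K i j u z := by
  have hd : ee F j ⬝ᵥ u = 0 := by rw [ee_dot, hj]
  obtain ⟨z, hz, hm⟩ := hK.exists_T_mul (ee_ne i) (T u (ee F j) hd)
  refine ⟨z, hi, hj, by rw [← ee_dot (F := F) i z]; exact hz, _, hm, ?_⟩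
  rw [Matrix.SpecialLinearGroup.coe_mul, coe_T, coe_T]
  unfold MM
  simp only [add_mul, mul_add, one_mul, mul_one, vecMulVec_mul_vecMulVec, ee_dot, hi, zero_smul, vecMulVec_zero]
  abel

theorem SmallK.RR_not_mul {i j : ι} (hij : i ≠ j) {u z : ι → F} (h : RR K i j u z) (hu : u ≠ 0) (c : F) : z ≠ c • u := by
  intro hz
  obtain ⟨h1, h2, h3, g, hg, hgm⟩ := h
  have hd : (ee F j + c • ee F i) ⬝ᵥ u = 0 := by
    rw [add_dotProduct, smul_dotProduct, ee_dot, ee_dot, h1, h2]; simp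
  have : g = T u (ee F j + c • ee F i) hd := by
    apply ext'
    rw [hgm, coe_T, hz]
    unfold MM
    rw [vecMulVec_add, vecMulVec_smul, smul_vecMulVec]
    abel
  rw [this] at hg
  refine hK.no_T hd hu ?_ hg
  intro h0
  have := congrFun h0 j
  simp only [Pi.add_apply, Pi.smul_apply, ee_self, ee_of_ne hij.symm, smul_eq_mul, mul_zero, add_zero, Pi.zero_apply] at this
  exact one_ne_zero this

/-- conjugation -/
theorem SmallK.RR_conj {i j : ι} (g0 : Matrix.SpecialLinearGroup ι F) (s : F)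
    (hA : ee F i ᵥ* ((g0⁻¹ : Matrix.SpecialLinearGroup ι F) : Matrix ι ι F) = s • ee F i)
    (hB : ee F j ᵥ* ((g0⁻¹ : Matrix.SpecialLinearGroup ι F) : Matrix ι ι F) = s • ee F j)
    (hCi : ∀ y : ι → F, y i = 0 → ((g0 : Matrix ι ι F) *ᵥ y) i = 0)
    (hCj : ∀ y : ι → F, y j = 0 → ((g0 : Matrix ι ι F) *ᵥ y) j = 0) :
    ∃ c : F, ∀ u z : ι → F, RR K i j u z →
      RR K i j (s • ((g0 : Matrix ι ι F) *ᵥ u)) (s • ((g0 : Matrix ι ι F) *ᵥ z) - c • ((g0 : Matrix ι ι F) *ᵥ u)) := by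
  obtain ⟨z0, hz0, hm⟩ := hK.exists_T_mul (ee_ne i) g0
  refine ⟨s * z0 j, ?_⟩
  rintro u z ⟨h1, h2, h3, g, hg, hgm⟩
  have hu' := hCi u h1
  have huj' := hCj u h2
  have hz' := hCi z h3
  refine ⟨by simp [hu'], by simp [huj'], by simp [hu', hz'], _,
    K.mul_mem (K.mul_mem hm hg) (K.inv_mem hm), ?_⟩
  rw [Matrix.SpecialLinearGroup.coe_mul, Matrix.SpecialLinearGroup.coe_mul, hgm]
  set G := T z0 (ee F i) hz0 * g0 with hG
  have hGG : (G : Matrix ι ι F) * ((G⁻¹ : Matrix.SpecialLinearGroup ι F) : Matrix ι ι F) = 1 := by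
    rw [← Matrix.SpecialLinearGroup.coe_mul, mul_inv_cancel, Matrix.SpecialLinearGroup.coe_one]
  have ev : ∀ y : ι → F, ((g0 : Matrix ι ι F) *ᵥ y) i = 0 → (G : Matrix ι ι F) *ᵥ y = (g0 : Matrix ι ι F) *ᵥ y := by
    intro y hy
    rw [hG, Matrix.SpecialLinearGroup.coe_mul, ← mulVec_mulVec, T_mulVec, ee_dot, hy]
    simp
  have efi : ee F i ᵥ* ((G⁻¹ : Matrix.SpecialLinearGroup ι F) : Matrix ι ι F) = s • ee F i := by
    rw [hG, _root_.mul_inv_rev, Matrix.SpecialLinearGroup.coe_mul, ← vecMul_vecMul, hA, smul_vecMul, T_inv', vecMul_T,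
      ee_dot]
    have : z0 i = 0 := by rw [← ee_dot (F := F) i z0]; exact hz0
    simp [this]
  have efj : ee F j ᵥ* ((G⁻¹ : Matrix.SpecialLinearGroup ι F) : Matrix ι ι F) = s • (ee F j - z0 j • ee F i) := by
    rw [hG, _root_.mul_inv_rev, Matrix.SpecialLinearGroup.coe_mul, ← vecMul_vecMul, hB, smul_vecMul, T_inv', vecMul_T,
      ee_dot]
    simp [sub_eq_add_neg]
  unfold MM
  rw [mul_add, mul_add, mul_one, add_mul, add_mul, hGG, mul_vecMulVec, mul_vecMulVec, vecMulVec_mul, vecMulVec_mul,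
    ev u hu', ev z hz', efi, efj]
  simp only [vecMulVec_smul, smul_vecMulVec, vecMulVec_sub, sub_vecMulVec, smul_sub, smul_smul]
  abel

omit hK in
theorem dual_vec (f : (ι → F) →ₗ[F] F) : ∃ d : ι → F, ∀ y, f y = y ⬝ᵥ d := by
  refine ⟨fun i => f (Pi.single i 1), ?_⟩
  intro y
  have : y = ∑ i, y i • (Pi.single i (1 : F) : ι → F) := by
    ext j
    simp [Finset.sum_apply, Pi.single_apply]
  conv_lhs => rw [this]
  rw [map_sum]
  simp [dotProduct]

omit hK in
/-- transvections `T v η` with `v_i = v_j = 0` satisfy the hypotheses of `RR_conj` with `s = 1`. -/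
theorem conj_hyp_T {i j : ι} (v η : ι → F) (h : η ⬝ᵥ v = 0) (hi : v i = 0) (hj : v j = 0) :
    ee F i ᵥ* (((T v η h)⁻¹ : Matrix.SpecialLinearGroup ι F) : Matrix ι ι F) = (1 : F) • ee F i ∧
    ee F j ᵥ* (((T v η h)⁻¹ : Matrix.SpecialLinearGroup ι F) : Matrix ι ι F) = (1 : F) • ee F j ∧
    (∀ y : ι → F, y i = 0 → (((T v η h : Matrix.SpecialLinearGroup ι F) : Matrix ι ι F) *ᵥ y) i = 0) ∧
    (∀ y : ι → F, y j = 0 → (((T v η h : Matrix.SpecialLinearGroup ι F) : Matrix ι ι F) *ᵥ y) j = 0) := by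
  refine ⟨?_, ?_, ?_, ?_⟩
  · rw [T_inv', vecMul_T, ee_dot]; simp [hi]
  · rw [T_inv', vecMul_T, ee_dot]; simp [hj]
  · intro y hy; rw [T_mulVec]; simp [hi, hy]
  · intro y hy; rw [T_mulVec]; simp [hj, hy]

theorem SmallK.RR_zj (h4 : 4 ≤ Fintype.card ι) {i j : ι} (hij : i ≠ j) {u z : ι → F} (h : RR K i j u z) : z j = 0 := by
  by_cases hu : u = 0
  · subst hu
    rw [hK.RR_zero h]; rfl
  by_contra hz
  obtain ⟨u', hu'i, hu'j, hu'⟩ : ∃ u' : ι → F, u' i = 0 ∧ u' j = 0 ∧ ∀ c : F, u' ≠ c • u := by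
    by_contra hcon
    push Not at hcon
    have hle : E (ee F i) ⊓ E (ee F j) ≤ Submodule.span F {u} := by
      rintro y ⟨hy1, hy2⟩
      have hy1' : y i = 0 := by rw [← dot_ee (F := F) i y]; exact hy1
      have hy2' : y j = 0 := by rw [← dot_ee (F := F) j y]; exact hy2
      obtain ⟨c, hc⟩ := hcon y hy1' hy2'
      rw [hc]
      exact Submodule.smul_mem _ _ (Submodule.mem_span_singleton_self u)
    have h1 := Submodule.finrank_mono hle
    have h2 : finrank F (Submodule.span F {u}) ≤ 1 := by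
      have := finrank_span_le_card (R := F) ({u} : Set (ι → F))
      simpa using this
    have h3 := finrank_E_inf (F := F) (v := ee F i) (w := ee F j) (ee_ne i) (by
      intro c hc
      have := congrFun hc j
      simp [ee_self, ee_of_ne hij.symm] at this)
    omega
  obtain ⟨z', hz'⟩ := hK.RR_exists hu'i hu'j
  have e1 := h.mul hz'
  have e2 := hz'.mul h
  rw [add_comm u' u] at e2
  have e3 := hK.RR_unique e1 e2
  have e4 : z' j • u = z j • u' := by
    have : z + z' + z' j • u = z + z' + z j • u' := by rw [e3]; abel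
    exact add_left_cancel this
  apply hu' ((z j)⁻¹ * z' j)
  rw [mul_smul, e4, smul_smul, inv_mul_cancel₀ hz, one_smul]

theorem SmallK.false_five (h5 : 5 ≤ Fintype.card ι) : False := by
  haveI : Nontrivial ι := Fintype.one_lt_card_iff_nontrivial.mp (by omega)
  obtain ⟨i, j, hij⟩ := exists_pair_ne ι
  set U := E (ee F i) ⊓ E (ee F j) with hU
  have hmemU : ∀ y, y ∈ U ↔ y i = 0 ∧ y j = 0 := by
    intro y
    rw [hU, Submodule.mem_inf, mem_E, mem_E, dot_ee, dot_ee]
  have hUrank := finrank_E_inf (F := F) (v := ee F i) (w := ee F j) (ee_ne i) (by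
      intro c hc
      have := congrFun hc j
      simp [ee_self, ee_of_ne hij.symm] at this)
  rw [← hU] at hUrank
  have hUne : U ≠ ⊥ := by
    intro h; rw [h, finrank_bot] at hUrank; omega
  obtain ⟨u, hu, hu0⟩ := Submodule.exists_mem_ne_zero_of_ne_bot hUne
  rw [hmemU] at hu
  obtain ⟨z, hz⟩ := hK.RR_exists hu.1 hu.2
  have hzj := hK.RR_zj (by omega) hij hz
  have hzi : z i = 0 := hz.2.2.1
  -- u'' ∈ U not in span {u, z}
  obtain ⟨u'', hu''U, hu''⟩ : ∃ u'' ∈ U, u'' ∉ Submodule.span F {u, z} := by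
    by_contra hcon
    push Not at hcon
    have h1 := Submodule.finrank_mono (show U ≤ Submodule.span F {u, z} from hcon)
    have h2 : finrank F (Submodule.span F {u, z}) ≤ 2 := by
      classical
      have := finrank_span_le_card (R := F) ({u, z} : Set (ι → F))
      refine this.trans ?_
      rw [Set.toFinset_insert, Set.toFinset_singleton]
      exact Finset.card_le_two
    omega
  rw [hmemU] at hu''U
  -- z ∉ span {u, u''}
  have hznot : z ∉ Submodule.span F {u, u''} := by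
    intro hmem
    rw [Submodule.mem_span_pair] at hmem
    obtain ⟨a, b, hab⟩ := hmem
    by_cases hb : b = 0
    · rw [hb, zero_smul, add_zero] at hab
      exact hK.RR_not_mul hij hz hu0 a hab.symm
    · apply hu''
      rw [Submodule.mem_span_pair]
      refine ⟨-(b⁻¹ * a), b⁻¹, ?_⟩
      rw [← hab, smul_add, smul_smul, smul_smul, inv_mul_cancel₀ hb, one_smul, neg_smul]
      abel
  obtain ⟨f, hf1, hf2⟩ := Submodule.exists_dual_map_eq_bot_of_notMem hznot inferInstance
  obtain ⟨d, hd⟩ := dual_vec f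
  have hfu : f u = 0 := by
    have : f u ∈ (Submodule.span F {u, u''}).map f := ⟨u, Submodule.subset_span (by simp), rfl⟩
    rw [hf2] at this
    exact this
  have hfu'' : f u'' = 0 := by
    have : f u'' ∈ (Submodule.span F {u, u''}).map f := ⟨u'', Submodule.subset_span (by simp), rfl⟩
    rw [hf2] at this
    exact this
  set η : ι → F := (f z)⁻¹ • d with hη
  have h1 : η ⬝ᵥ u = 0 := by rw [hη, smul_dotProduct, dotProduct_comm, ← hd, hfu, smul_zero]
  have h2 : η ⬝ᵥ u'' = 0 := by rw [hη, smul_dotProduct, dotProduct_comm, ← hd, hfu'', smul_zero]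
  have h3 : η ⬝ᵥ z = 1 := by rw [hη, smul_dotProduct, dotProduct_comm, ← hd, smul_eq_mul, inv_mul_cancel₀ hf1]
  obtain ⟨k1, k2, k3, k4⟩ := conj_hyp_T (i := i) (j := j) u'' η h2 hu''U.1 hu''U.2
  obtain ⟨c, hc⟩ := hK.RR_conj (T u'' η h2) 1 k1 k2 k3 k4
  have h5 := hc u z hz
  rw [T_mulVec, T_mulVec, h1, h3, zero_smul, add_zero, one_smul, one_smul, one_smul] at h5
  have h6 := hK.RR_unique hz h5
  have h7 : u'' = c • u := by
    have : z + 0 = z + (u'' - c • u) := by rw [add_zero]; rw [← add_sub_assoc]; exact h6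
    have := add_left_cancel this
    exact (sub_eq_zero.mp this.symm)
  apply hu''
  rw [h7]
  exact Submodule.smul_mem _ _ (Submodule.subset_span (by simp))

end

end Cfsg.Agent.H36.SLT
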