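import Cfsg.Agent.H36.PSLIndex5

set_option autoImplicit false
set_option linter.all false

/-!
Minimal index of subgroups of SL_n(q): dimensions 3 and 4, and the final statement.
-/

namespace Cfsg.Agent.H36.SLT

open Matrix Module MulAction

variable {F : Type*} [Field F]

theorem vecMul_inv_of {ι : Type*} [Fintype ι] [DecidableEq ι] {g : Matrix.SpecialLinearGroup ι F} {x y : ι → F}
    (h : x ᵥ* (g : Matrix ι ι F) = y) : y ᵥ* ((g⁻¹ : Matrix.SpecialLinearGroup ι F) : Matrix ι ι F) = x := by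
  rw [← h, vecMul_vecMul, ← Matrix.SpecialLinearGroup.coe_mul, mul_inv_cancel, Matrix.SpecialLinearGroup.coe_one,
    vecMul_one]

theorem exists_lambda (hq : 3 ≤ Nat.card F) [Finite F] : ∃ l : F, l ≠ 0 ∧ l ≠ 1 := by
  classical
  haveI : Fintype F := Fintype.ofFinite F
  by_contra hcon
  push Not at hcon
  have : (Finset.univ : Finset F) ⊆ {0, 1} := by
    intro x _
    by_cases hx : x = 0
    · simp [hx]
    · simp [hcon x hx]
  have h1 := Finset.card_le_card this
  have h2 : ({0, 1} : Finset F).card ≤ 2 := Finset.card_le_two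
  rw [Finset.card_univ, ← Nat.card_eq_fintype_card] at h1
  omega

theorem SmallK.false_four {K : Subgroup (Matrix.SpecialLinearGroup (Fin 4) F)} (hK : SmallK K) (hq : 3 ≤ Nat.card F) :
    False := by
  haveI := hK.finF
  have hij : (3 : Fin 4) ≠ 2 := by decide
  have hzj : ∀ {u z : Fin 4 → F}, RR K 3 2 u z → z 2 = 0 := fun h => hK.RR_zj (by simp) hij h
  -- the two basic elements
  obtain ⟨za, hza⟩ := hK.RR_exists (i := (3 : Fin 4)) (j := 2) (u := ee F 0) (by simp [ee]) (by simp [ee])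
  obtain ⟨zb, hzb⟩ := hK.RR_exists (i := (3 : Fin 4)) (j := 2) (u := ee F 1) (by simp [ee]) (by simp [ee])
  have hza2 := hzj hza
  have hzb2 := hzj hzb
  have hza3 : za 3 = 0 := hza.2.2.1
  have hzb3 : zb 3 = 0 := hzb.2.2.1
  have hβ : za 1 ≠ 0 := by
    intro h0
    apply hK.RR_not_mul hij hza (ee_ne 0) (za 0)
    ext k
    fin_cases k <;> simp [ee, h0, hza2, hza3]
  -- z (t e_0) for all t
  have hz : ∀ t : F, RR K 3 2 (t • ee F 0) ((zb 1 * t - za 1 * t * t) • ee F 0 - (za 1 * t) • ee F 1) := by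
    intro t
    have hd : ee F 1 ⬝ᵥ (t • ee F 0 : Fin 4 → F) = 0 := by rw [ee_dot]; simp [ee]
    obtain ⟨k1, k2, k3, k4⟩ := conj_hyp_T (i := (3 : Fin 4)) (j := 2) (t • ee F 0) (ee F 1) hd (by simp [ee]) (by simp [ee])
    obtain ⟨c, hc⟩ := hK.RR_conj _ 1 k1 k2 k3 k4
    have h1 := hc _ _ hza
    have hc' : c = za 1 * t := by
      rw [T_mulVec, T_mulVec, ee_dot, ee_dot] at h1
      have e : (1 : F) • ((ee F 0 : Fin 4 → F) + (ee F 0 : Fin 4 → F) 1 • t • ee F 0) = ee F 0 := by
        ext k; fin_cases k <;> simp [ee]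
      rw [e] at h1
      have h2 := congrFun (hK.RR_unique hza h1) 0
      simp [ee] at h2
      linear_combination h2
    have h2 := (hc _ _ hzb).mul hzb.inv
    rw [T_mulVec, T_mulVec, ee_dot, ee_dot, hc'] at h2
    convert h2 using 1
    · ext k; fin_cases k <;> simp [ee]
    · ext k
      fin_cases k <;> simp [ee, hzb2, hzb3] <;> ring
  have h1 := hz 1
  rw [one_smul] at h1
  have h2 : za 1 = - za 1 := by
    have := congrFun (hK.RR_unique hza h1) 1
    simpa [ee] using this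
  have hchar : (2 : F) = 0 := by
    have : (2 : F) * za 1 = 0 := by linear_combination h2
    rcases mul_eq_zero.mp this with h | h
    · exact h
    · exact absurd h hβ
  obtain ⟨l, hl0, hl1⟩ := exists_lambda (F := F) hq
  have h01 : (0 : Fin 4) ≠ 1 := by decide
  set D := Matrix.SpecialLinearGroup.diag2n h01 l hl0 with hD
  have hDm : (D : Matrix (Fin 4) (Fin 4) F) = diagonal (fun k ↦ if k = 0 then l else if k = 1 then l⁻¹ else 1) := rfl
  have hDv : ∀ (y : Fin 4 → F) (k : Fin 4), ((D : Matrix (Fin 4) (Fin 4) F) *ᵥ y) k = (if k = 0 then l else if k = 1 then l⁻¹ else 1) * y k := by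
    intro y k
    rw [hDm, mulVec_diagonal]
  have hvD : ∀ (y : Fin 4 → F) (k : Fin 4), (y ᵥ* (D : Matrix (Fin 4) (Fin 4) F)) k = y k * (if k = 0 then l else if k = 1 then l⁻¹ else 1) := by
    intro y k
    rw [hDm, vecMul_diagonal]
  have k1 : ee F 3 ᵥ* ((D⁻¹ : Matrix.SpecialLinearGroup (Fin 4) F) : Matrix (Fin 4) (Fin 4) F) = (1 : F) • ee F 3 := by
    rw [one_smul]
    apply vecMul_inv_of
    ext k
    rw [hvD]
    fin_cases k <;> simp [ee]
  have k2 : ee F 2 ᵥ* ((D⁻¹ : Matrix.SpecialLinearGroup (Fin 4) F) : Matrix (Fin 4) (Fin 4) F) = (1 : F) • ee F 2 := by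
    rw [one_smul]
    apply vecMul_inv_of
    ext k
    rw [hvD]
    fin_cases k <;> simp [ee]
  obtain ⟨c, hc⟩ := hK.RR_conj D 1 k1 k2 (fun y hy => by rw [hDv, hy, mul_zero]) (fun y hy => by rw [hDv, hy, mul_zero])
  have h3 := hc _ _ hza
  have e1 : (1 : F) • ((D : Matrix (Fin 4) (Fin 4) F) *ᵥ ee F 0) = l • ee F 0 := by
    ext k
    rw [one_smul, hDv]
    fin_cases k <;> simp [ee]
  rw [e1] at h3
  have h4 := congrFun (hK.RR_unique h3 (hz l)) 1
  simp only [Pi.sub_apply, Pi.smul_apply, smul_eq_mul, hDv, one_mul] at h4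
  simp [ee] at h4
  -- l⁻¹ β = - β l
  have h5 : l * l = 1 := by
    field_simp at h4
    linear_combination h4 - hchar
  apply hl1
  have h8 : (l - 1) * (l - 1) = 0 := by linear_combination h5 + (1 - l) * hchar
  rcases mul_eq_zero.mp h8 with h | h <;> linear_combination h

theorem SmallK.false_three {K : Subgroup (Matrix.SpecialLinearGroup (Fin 3) F)} (hK : SmallK K) : False := by
  haveI := hK.finF
  have hij : (2 : Fin 3) ≠ 1 := by decide
  obtain ⟨za, hza⟩ := hK.RR_exists (i := (2 : Fin 3)) (j := 1) (u := ee F 0) (by simp [ee]) (by simp [ee])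
  have hza2 : za 2 = 0 := hza.2.2.1
  have hβ : za 1 ≠ 0 := by
    intro h0
    apply hK.RR_not_mul hij hza (ee_ne 0) (za 0)
    ext k
    fin_cases k <;> simp [ee, h0, hza2]
  have hm1 : (-1 : F) ≠ 0 := by simp
  have h12 : (1 : Fin 3) ≠ 2 := by decide
  set D := Matrix.SpecialLinearGroup.diag2n h12 (-1 : F) hm1 with hD
  have hDm : (D : Matrix (Fin 3) (Fin 3) F) = diagonal (fun k ↦ if k = 1 then (-1 : F) else if k = 2 then (-1 : F)⁻¹ else 1) := rfl
  have hDv : ∀ (y : Fin 3 → F) (k : Fin 3), ((D : Matrix (Fin 3) (Fin 3) F) *ᵥ y) k = (if k = 1 then (-1 : F) else if k = 2 then (-1 : F)⁻¹ else 1) * y k := by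
    intro y k
    rw [hDm, mulVec_diagonal]
  have hvD : ∀ (y : Fin 3 → F) (k : Fin 3), (y ᵥ* (D : Matrix (Fin 3) (Fin 3) F)) k = y k * (if k = 1 then (-1 : F) else if k = 2 then (-1 : F)⁻¹ else 1) := by
    intro y k
    rw [hDm, vecMul_diagonal]
  have k1 : ee F 2 ᵥ* ((D⁻¹ : Matrix.SpecialLinearGroup (Fin 3) F) : Matrix (Fin 3) (Fin 3) F) = (-1 : F) • ee F 2 := by
    apply vecMul_inv_of
    ext k
    rw [hvD]
    fin_cases k <;> simp [ee]
  have k2 : ee F 1 ᵥ* ((D⁻¹ : Matrix.SpecialLinearGroup (Fin 3) F) : Matrix (Fin 3) (Fin 3) F) = (-1 : F) • ee F 1 := by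
    apply vecMul_inv_of
    ext k
    rw [hvD]
    fin_cases k <;> simp [ee]
  obtain ⟨c, hc⟩ := hK.RR_conj D (-1) k1 k2 (fun y hy => by rw [hDv, hy, mul_zero]) (fun y hy => by rw [hDv, hy, mul_zero])
  have h3 := hc _ _ hza
  have e1 : (-1 : F) • ((D : Matrix (Fin 3) (Fin 3) F) *ᵥ ee F 0) = - ee F 0 := by
    ext k
    rw [neg_one_smul, Pi.neg_apply, hDv]
    fin_cases k <;> simp [ee]
  rw [e1] at h3
  have h4 := congrFun (hK.RR_unique h3 hza.inv) 1
  simp only [Pi.sub_apply, Pi.smul_apply, smul_eq_mul, hDv, one_mul, Pi.add_apply, Pi.neg_apply] at h4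
  simp [ee] at h4
  -- 2 β = 0
  have h5 : (2 : F) = 0 := by
    have : (2 : F) * za 1 = 0 := by linear_combination h4
    rcases mul_eq_zero.mp this with h | h
    · exact h
    · exact absurd h hβ
  have h6 := hza.mul hza
  have e2 : (ee F 0 + ee F 0 : Fin 3 → F) = 0 := by
    ext k
    simp only [Pi.add_apply, Pi.zero_apply]
    linear_combination (ee F 0 k) * h5
  rw [e2] at h6
  have h7 := congrFun (hK.RR_zero h6) 0
  simp [ee] at h7
  apply hβ
  linear_combination h7 - (za 0) * h5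

/-- The minimal index theorem for `SL_n(q)`, lower bound. -/
theorem index_ge {n : ℕ} [Finite F] (hn : 3 ≤ n) (hexc : ¬ (n = 4 ∧ Nat.card F = 2))
    (K : Subgroup (Matrix.SpecialLinearGroup (Fin n) F)) (hK : K ≠ ⊤) :
    ∑ k ∈ Finset.range n, Nat.card F ^ k ≤ K.index := by
  by_contra hcon
  push Not at hcon
  have hS : SmallK K := ⟨inferInstance, by simpa using hn, hK, by simpa using hcon⟩
  have hq := hS.toSmall.q2
  rcases Nat.lt_or_ge n 5 with h | h
  · have : n = 3 ∨ n = 4 := by omega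
    rcases this with rfl | rfl
    · exact hS.false_three
    · exact hS.false_four (by
        have : Nat.card F ≠ 2 := fun h => hexc ⟨rfl, h⟩
        omega)
  · exact hS.false_five (by simpa using h)

end Cfsg.Agent.H36.SLT
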